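import Mathlib
import Cfsg.Agent.Aschbacher.Tensor
import Cfsg.Agent.Aschbacher.InvariantForms

/-!
Dimension four: decompositions into two planes over at most three elements preserve a symplectic
form, and tensor products of two planes preserve the determinant form.
-/

set_option autoImplicit false

namespace CfsgLib.AschLinear

open Matrix Module

variable {ι : Type} [Fintype ι] [DecidableEq ι] {F : Type*} [Field F]

local notation "GLm" => Matrix.GeneralLinearGroup

/-- The standard alternating form on four coordinates in pairs. -/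
def pairForm (x y : Fin 4 → F) : F := x 0 * y 1 - x 1 * y 0 + (x 2 * y 3 - x 3 * y 2)

theorem isSymplecticForm_pairForm (b : Basis (Fin 4) F (ι → F)) :
    Cfsg.Geo.IsSymplecticForm (fun u v => pairForm (b.equivFun u) (b.equivFun v)) where
  bilinear :=
    { add_left := fun x y v => by simp [pairForm]; ring
      smul_left := fun c x v => by simp [pairForm]; ring
      add_right := fun v x y => by simp [pairForm]; ring
      smul_right := fun c v x => by simp [pairForm]; ring }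
  skew u v := by simp [pairForm]; ring
  alternating v := by simp [pairForm]; ring
  nondegenerate v hv := by
    have hne : b.equivFun v ≠ 0 := by simpa using hv
    obtain ⟨i, hi⟩ := Function.ne_iff.1 hne
    fin_cases i
    · exact ⟨⟨b 1, by simpa [pairForm, Finsupp.single_apply] using hi⟩,
        ⟨b 1, by simpa [pairForm, Finsupp.single_apply] using hi⟩⟩
    · exact ⟨⟨b 0, by simpa [pairForm, Finsupp.single_apply] using hi⟩,
        ⟨b 0, by simpa [pairForm, Finsupp.single_apply] using hi⟩⟩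
    · exact ⟨⟨b 3, by simpa [pairForm, Finsupp.single_apply] using hi⟩,
        ⟨b 3, by simpa [pairForm, Finsupp.single_apply] using hi⟩⟩
    · exact ⟨⟨b 2, by simpa [pairForm, Finsupp.single_apply] using hi⟩,
        ⟨b 2, by simpa [pairForm, Finsupp.single_apply] using hi⟩⟩

/-- In dimension four over at most three elements a plane decomposition preserves a symplectic
form. -/
theorem planes_small [Fintype F] (hF : Fintype.card F ≤ 3) (hn : Fintype.card ι = 4)
    {D : Fin 2 → Submodule F (ι → F)} (hD : Cfsg.Geo.IsMDecomposition 2 D)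
    {H : Subgroup (GLm ι F)} (hH : H ≤ Cfsg.Geo.decompositionStabilizer D)
    (hSL : H ≤ Cfsg.Geo.specialLinear ι F) :
    ∃ f : (ι → F) → (ι → F) → F, Cfsg.Geo.IsSymplecticForm f ∧ H ≤ Cfsg.Geo.similarityGroup f := by
  classical
  have h01 : (0 : Fin 2) ≠ 1 := by decide
  have hcompl : IsCompl (D 0) (D 1) := by
    refine ⟨hD.indep.pairwiseDisjoint h01, codisjoint_iff.2 ?_⟩
    refine le_antisymm le_top (hD.iSup_eq_top ▸ iSup_le fun i => ?_)
    fin_cases i
    · exact le_sup_left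
    · exact le_sup_right
  let b0 : Basis (Fin 2) F (D 0) := Module.finBasisOfFinrankEq F (D 0) (hD.finrank_eq 0)
  let b1 : Basis (Fin 2) F (D 1) := Module.finBasisOfFinrankEq F (D 1) (hD.finrank_eq 1)
  let b : Basis (Fin 4) F (ι → F) :=
    ((b0.prod b1).map (Submodule.prodEquivOfIsCompl _ _ hcompl)).reindex finSumFinEquiv
  have hb : ∀ i : Fin 4, b i ∈ D (if (i : ℕ) < 2 then 0 else 1) := by
    intro i
    fin_cases i <;> simp [b, finSumFinEquiv, Fin.addCases]
  have hzero : ∀ (j : Fin 2) (v : ι → F), v ∈ D j → ∀ i : Fin 4,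
      (if (i : ℕ) < 2 then (0 : Fin 2) else 1) ≠ j → b.equivFun v i = 0 := by
    intro j v hv i hi
    have hsym : ∀ k, (b.equivFun v) k = ((b0.prod b1).repr
        ((Submodule.prodEquivOfIsCompl _ _ hcompl).symm v)) (finSumFinEquiv.symm k) := fun k => by
      simp [b]
    rw [hsym]
    fin_cases j
    · have : (Submodule.prodEquivOfIsCompl _ _ hcompl).symm v = ((⟨v, hv⟩ : D 0), 0) :=
        Submodule.prodEquivOfIsCompl_symm_apply_left (D 0) (D 1) hcompl (⟨v, hv⟩ : D 0)
      rw [this]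
      fin_cases i <;> simp_all [finSumFinEquiv, Fin.addCases]
    · have : (Submodule.prodEquivOfIsCompl _ _ hcompl).symm v = (0, (⟨v, hv⟩ : D 1)) :=
        Submodule.prodEquivOfIsCompl_symm_apply_right (D 0) (D 1) hcompl (⟨v, hv⟩ : D 1)
      rw [this]
      fin_cases i <;> simp_all [finSumFinEquiv, Fin.addCases]
  refine ⟨_, isSymplecticForm_pairForm b, fun h hh => ?_⟩
  obtain ⟨π, hπ⟩ := hH hh
  set M : Matrix (Fin 4) (Fin 4) F := LinearMap.toMatrix b b (Matrix.toLin' (h : Matrix ι ι F)) with hM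
  have hrep : ∀ u, b.equivFun ((h : Matrix ι ι F) *ᵥ u) = M *ᵥ b.equivFun u := by
    intro u
    rw [hM]
    have := LinearMap.toMatrix_mulVec_repr b b (Matrix.toLin' (h : Matrix ι ι F)) u
    rw [Basis.equivFun_apply, Basis.equivFun_apply, this]
    simp
  have hdet : M.det = 1 := by
    rw [hM, LinearMap.det_toMatrix, LinearMap.det_toLin']
    exact congrArg Units.val (MonoidHom.mem_ker.1 (hSL hh))
  have hz : ∀ i k : Fin 4, (if (i : ℕ) < 2 then (0 : Fin 2) else 1) ≠
      π (if (k : ℕ) < 2 then (0 : Fin 2) else 1) → M i k = 0 := by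
    intro i k hik
    rw [hM, LinearMap.toMatrix_apply, Matrix.toLin'_apply]
    refine hzero _ _ ?_ i hik
    rw [← hπ]
    exact ⟨b k, hb k, Matrix.toLin'_apply _ _⟩
  have hsq : ∀ a : F, a ≠ 0 → a * a = 1 := by
    intro a ha
    have h1 : 1 < Fintype.card F := Fintype.one_lt_card
    have h2 := FiniteField.pow_card_sub_one_eq_one a ha
    rcases (by omega : Fintype.card F = 2 ∨ Fintype.card F = 3) with h | h <;> rw [h] at h2
    · rw [pow_one] at h2; rw [h2, one_mul]
    · rw [← sq]; exact h2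
  have hperm : ∀ τ : Equiv.Perm (Fin 2), τ = 1 ∨ τ = Equiv.swap 0 1 := by decide
  rcases hperm π with rfl | rfl
  · have hd : (M 0 0 * M 1 1 - M 0 1 * M 1 0) * (M 2 2 * M 3 3 - M 2 3 * M 3 2) = 1 := by
      rw [← hdet, Matrix.det_succ_row_zero]
      simp [Fin.sum_univ_succ, Matrix.det_fin_three, Matrix.submatrix, Fin.succAbove,
        hz 0 2, hz 0 3, hz 1 2, hz 1 3, hz 2 0, hz 2 1, hz 3 0, hz 3 1]
      ring
    set d0 := M 0 0 * M 1 1 - M 0 1 * M 1 0 with hd0
    have hne : d0 ≠ 0 := left_ne_zero_of_mul (ne_of_eq_of_ne hd one_ne_zero)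
    have heq : M 2 2 * M 3 3 - M 2 3 * M 3 2 = d0 :=
      mul_left_cancel₀ hne (hd.trans (hsq _ hne).symm)
    refine ⟨Units.mk0 d0 hne, fun u v => ?_⟩
    have e : ∀ w : Fin 4 → F, (M *ᵥ w) 0 = M 0 0 * w 0 + M 0 1 * w 1 ∧ (M *ᵥ w) 1 = M 1 0 * w 0 + M 1 1 * w 1
        ∧ (M *ᵥ w) 2 = M 2 2 * w 2 + M 2 3 * w 3 ∧ (M *ᵥ w) 3 = M 3 2 * w 2 + M 3 3 * w 3 := by
      intro w
      simp [Matrix.mulVec, dotProduct, Fin.sum_univ_four,
        hz 0 2, hz 0 3, hz 1 2, hz 1 3, hz 2 0, hz 2 1, hz 3 0, hz 3 1]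
    simp only [pairForm, hrep, (e _).1, (e _).2.1, (e _).2.2.1, (e _).2.2.2, Units.val_mk0]
    linear_combination (b.equivFun u 2 * b.equivFun v 3 - b.equivFun u 3 * b.equivFun v 2) * heq
  · have hd : (M 2 0 * M 3 1 - M 2 1 * M 3 0) * (M 0 2 * M 1 3 - M 0 3 * M 1 2) = 1 := by
      rw [← hdet, Matrix.det_succ_row_zero]
      simp [Fin.sum_univ_succ, Matrix.det_fin_three, Matrix.submatrix, Fin.succAbove,
        hz 0 0, hz 0 1, hz 1 0, hz 1 1, hz 2 2, hz 2 3, hz 3 2, hz 3 3]
      ring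
    set d0 := M 2 0 * M 3 1 - M 2 1 * M 3 0 with hd0
    have hne : d0 ≠ 0 := left_ne_zero_of_mul (ne_of_eq_of_ne hd one_ne_zero)
    have heq : M 0 2 * M 1 3 - M 0 3 * M 1 2 = d0 :=
      mul_left_cancel₀ hne (hd.trans (hsq _ hne).symm)
    refine ⟨Units.mk0 d0 hne, fun u v => ?_⟩
    have e : ∀ w : Fin 4 → F, (M *ᵥ w) 0 = M 0 2 * w 2 + M 0 3 * w 3 ∧ (M *ᵥ w) 1 = M 1 2 * w 2 + M 1 3 * w 3
        ∧ (M *ᵥ w) 2 = M 2 0 * w 0 + M 2 1 * w 1 ∧ (M *ᵥ w) 3 = M 3 0 * w 0 + M 3 1 * w 1 := by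
      intro w
      simp [Matrix.mulVec, dotProduct, Fin.sum_univ_four,
        hz 0 0, hz 0 1, hz 1 0, hz 1 1, hz 2 2, hz 2 3, hz 3 2, hz 3 3]
    simp only [pairForm, hrep, (e _).1, (e _).2.1, (e _).2.2.1, (e _).2.2.2, Units.val_mk0]
    linear_combination (b.equivFun u 2 * b.equivFun v 3 - b.equivFun u 3 * b.equivFun v 2) * heq

/-- The determinant form attached to coordinates indexed by pairs. -/
def detForm (e : ι ≃ Fin 2 × Fin 2) (x : ι → F) : F :=
  x (e.symm (0, 0)) * x (e.symm (1, 1)) - x (e.symm (0, 1)) * x (e.symm (1, 0))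

theorem polar_detForm (e : ι ≃ Fin 2 × Fin 2) (u v : ι → F) :
    QuadraticMap.polar (detForm e) u v =
      u (e.symm (0, 0)) * v (e.symm (1, 1)) + v (e.symm (0, 0)) * u (e.symm (1, 1)) -
        (u (e.symm (0, 1)) * v (e.symm (1, 0)) + v (e.symm (0, 1)) * u (e.symm (1, 0))) := by
  simp [QuadraticMap.polar, detForm]; ring

theorem isNondegenerateQuadraticForm_detForm (e : ι ≃ Fin 2 × Fin 2) (P : GLm ι F) :
    Cfsg.Geo.IsNondegenerateQuadraticForm
      (fun v => detForm e (((P⁻¹ : GLm ι F) : Matrix ι ι F) *ᵥ v)) := by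
  set Pi' : Matrix ι ι F := ((P⁻¹ : GLm ι F) : Matrix ι ι F) with hPi
  have hpol : ∀ u v, QuadraticMap.polar (fun v => detForm e (Pi' *ᵥ v)) u v =
      QuadraticMap.polar (detForm e) (Pi' *ᵥ u) (Pi' *ᵥ v) := fun u v => by
    simp [QuadraticMap.polar, Matrix.mulVec_add]
  refine ⟨fun c v => ?_, ⟨?_, ?_, ?_, ?_⟩, fun v hv => ?_⟩
  · simp [detForm, Matrix.mulVec_smul]; ring
  · intro x y v; simp [hpol, polar_detForm, Matrix.mulVec_add]; ring
  · intro c x v; simp [hpol, polar_detForm, Matrix.mulVec_smul]; ring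
  · intro v x y; simp [hpol, polar_detForm, Matrix.mulVec_add]; ring
  · intro c v x; simp [hpol, polar_detForm, Matrix.mulVec_smul]; ring
  · set w := Pi' *ᵥ v with hw
    have hw0 : w ≠ 0 := fun h0 => hv (by
      have := congrArg ((P : Matrix ι ι F) *ᵥ ·) h0
      simp only [hw, hPi, Matrix.mulVec_mulVec, Matrix.mulVec_zero, ← Units.val_mul, mul_inv_cancel,
        Units.val_one, Matrix.one_mulVec] at this
      exact this)
    obtain ⟨i, hi⟩ := Function.ne_iff.1 hw0
    obtain ⟨⟨a, c⟩, rfl⟩ := e.symm.surjective i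
    have key : ∀ x : Fin 2 × Fin 2, Pi' *ᵥ ((P : Matrix ι ι F) *ᵥ Pi.single (e.symm x) 1) =
        Pi.single (e.symm x) 1 := fun x => by
      rw [hPi, Matrix.mulVec_mulVec, ← Units.val_mul, inv_mul_cancel, Units.val_one, Matrix.one_mulVec]
    refine ⟨⟨(P : Matrix ι ι F) *ᵥ Pi.single (e.symm (a + 1, c + 1)) 1, ?_⟩,
      ⟨(P : Matrix ι ι F) *ᵥ Pi.single (e.symm (a + 1, c + 1)) 1, ?_⟩⟩ <;>
      · rw [hpol, key, polar_detForm, ← hw]
        fin_cases a <;> fin_cases c <;> simpa [Pi.single_apply] using hi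

theorem mulVec_kronecker_detForm (e : ι ≃ Fin 2 × Fin 2) (a c : Matrix (Fin 2) (Fin 2) F)
    (x : ι → F) :
    detForm e ((Matrix.kroneckerMap (· * ·) a c).submatrix e e *ᵥ x) = a.det * c.det * detForm e x := by
  have h : ∀ y : Fin 2 × Fin 2, ((Matrix.kroneckerMap (· * ·) a c).submatrix e e *ᵥ x) (e.symm y) =
      ∑ z : Fin 2 × Fin 2, a y.1 z.1 * c y.2 z.2 * x (e.symm z) := by
    intro y
    rw [Matrix.mulVec, dotProduct, ← e.symm.sum_comp]
    simp
  simp only [detForm, h, Fintype.sum_prod_type, Fin.sum_univ_two, Matrix.det_fin_two]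
  ring

/-- A tensor product of two planes lies in the similarity group of a quadratic form. -/
theorem tensor_le_quadSimilarityGroup (e : ι ≃ Fin 2 × Fin 2) (P : GLm ι F) :
    Cfsg.Geo.tensorProductSubgroup 2 2 e P ≤ Cfsg.Geo.quadSimilarityGroup
      (fun v => detForm e (((P⁻¹ : GLm ι F) : Matrix ι ι F) *ᵥ v)) := by
  intro g hg
  obtain ⟨a, c, hac⟩ := (CfsgLib.Aschbacher.mem_tensorProductSubgroup_iff e P g).1 hg
  refine ⟨Matrix.GeneralLinearGroup.det a * Matrix.GeneralLinearGroup.det c, fun v => ?_⟩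
  rw [hac, CfsgLib.Aschbacher.tconj_apply]
  simp only [Matrix.mulVec_mulVec, ← mul_assoc]
  rw [← Units.val_mul, inv_mul_cancel, Units.val_one, one_mul, ← Matrix.mulVec_mulVec,
    mulVec_kronecker_detForm]
  simp

/-- In characteristic two the polar form of a non-degenerate quadratic form is symplectic. -/
theorem isSymplecticForm_polar (h2 : (2 : F) = 0) {Q : (ι → F) → F}
    (hQ : Cfsg.Geo.IsNondegenerateQuadraticForm Q) :
    Cfsg.Geo.IsSymplecticForm (QuadraticMap.polar Q) where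
  bilinear := hQ.polar_bilinear
  skew v w := by
    have hneg : (-1 : F) = 1 := by rw [neg_eq_iff_add_eq_zero, one_add_one_eq_two, h2]
    rw [← neg_one_mul, hneg, one_mul, QuadraticMap.polar_comm]
  alternating v := by rw [CfsgLib.Aschbacher.polar_self hQ, h2, zero_mul]
  nondegenerate := hQ.nondegenerate

end CfsgLib.AschLinear
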