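import Mathlib
import Cfsg.Agent.Eq.Def_GeometricClasses
import Cfsg.Agent.AschLinear.Dim4Forms
import Cfsg.Agent.Aschbacher.NormalStructure

/-!
A group permuting two commuting quaternion algebras in dimension four preserves, up to scalars, the
determinant form.
-/

set_option autoImplicit false

namespace CfsgLib.AschLinear

open Matrix CfsgLib.Aschbacher
open scoped Kronecker

variable {ι : Type} [Fintype ι] [DecidableEq ι] {F : Type*} [Field F]

local notation "GLm" => Matrix.GeneralLinearGroup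

/-- The exchange of the two factors. -/
theorem exists_swap (e : ι ≃ Fin 2 × Fin 2) (P : GLm ι F) :
    ∃ S : GLm ι F, S ∈ Cfsg.Geo.quadSimilarityGroup
      (fun v => detForm e (((P⁻¹ : GLm ι F) : Matrix ι ι F) *ᵥ v)) ∧
      ∀ X Y : Matrix (Fin 2) (Fin 2) F,
        conjAlg S (tconj e P (X ⊗ₖ Y)) = tconj e P (Y ⊗ₖ X) := by
  let Sw : Matrix (Fin 2 × Fin 2) (Fin 2 × Fin 2) F := (Equiv.prodComm (Fin 2) (Fin 2)).toPEquiv.toMatrix
  have hSw : ∀ M : Matrix (Fin 2 × Fin 2) (Fin 2 × Fin 2) F,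
      Sw * M * Sw = M.submatrix Prod.swap Prod.swap := fun M => by
    simp only [Sw, PEquiv.toMatrix_toPEquiv_mul, PEquiv.mul_toMatrix_toPEquiv]
    ext ⟨a, b⟩ ⟨c, d⟩
    simp
  have hsq : Sw * Sw = 1 := by
    have h := hSw 1
    rw [mul_one] at h
    rw [h]
    exact Matrix.submatrix_one _ Prod.swap_injective
  have hS2 : tconj e P Sw * tconj e P Sw = 1 := by rw [← map_mul, hsq, map_one]
  refine ⟨⟨tconj e P Sw, tconj e P Sw, hS2, hS2⟩, ⟨1, fun v => ?_⟩, fun X Y => ?_⟩
  · rw [Units.val_one, one_mul]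
    show detForm e (((P⁻¹ : GLm ι F) : Matrix ι ι F) *ᵥ (tconj e P Sw *ᵥ v)) = detForm e _
    rw [tconj_apply, mulVec_mulVec, ← mul_assoc, ← mul_assoc, ← Units.val_mul, inv_mul_cancel,
      Units.val_one, one_mul, ← mulVec_mulVec]
    generalize ((P⁻¹ : GLm ι F) : Matrix ι ι F) *ᵥ v = w
    have hw : ∀ y : Fin 2 × Fin 2, (Sw.submatrix e e *ᵥ w) (e.symm y) = w (e.symm y.swap) := by
      intro y
      rw [Matrix.mulVec, dotProduct, ← e.symm.sum_comp]
      simp [Sw, PEquiv.toMatrix_apply]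
    simp only [detForm, hw, Prod.swap_prod_mk]
    ring
  · show tconj e P Sw * tconj e P (X ⊗ₖ Y) * tconj e P Sw = _
    rw [← map_mul, ← map_mul, hSw]
    congr 1
    ext ⟨a, b⟩ ⟨c, d⟩
    simp [Matrix.kroneckerMap_apply, mul_comm]

/-- Two commuting copies of the algebra of two by two matrices in dimension four. -/
theorem le_quadSimilarity_of_commutingData (hn : Fintype.card ι = 4) {H : Subgroup (GLm ι F)} {d : ℕ}
    {S : Finset (Subalgebra F (Matrix ι ι F))} (hS : CommutingData H d S) :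
    ∃ Q : (ι → F) → F, Cfsg.Geo.IsNondegenerateQuadraticForm Q ∧
      H ≤ Cfsg.Geo.quadSimilarityGroup Q := by
  classical
  have hd : d = 2 := by
    have h1 : d ^ S.card = 4 := hS.card_eq.symm.trans hn
    have h2 : d ^ 2 ≤ d ^ S.card := Nat.pow_le_pow_right (by have := hS.two_le; omega) hS.two_le_card
    have := hS.two_le
    nlinarith
  subst hd
  have hS2 : S.card = 2 :=
    Nat.pow_right_injective le_rfl (hS.card_eq.symm.trans hn : 2 ^ S.card = 2 ^ 2)
  obtain ⟨A, B, hAB, hSAB⟩ := Finset.card_eq_two.1 hS2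
  subst hSAB
  obtain ⟨φA, hA⟩ := hS.matrix A (by simp)
  obtain ⟨φB, hB⟩ := hS.matrix B (by simp)
  obtain ⟨k, e, P, heP⟩ := exists_tensor φA
  obtain rfl : k = 2 := by
    have := Fintype.card_congr e
    rw [hn, Fintype.card_prod, Fintype.card_fin, Fintype.card_fin] at this
    omega
  refine ⟨_, isNondegenerateQuadraticForm_detForm e P, ?_⟩
  -- the second algebra is the second factor
  have hcommAB : ∀ Y, ∃ Z, φB Y = tconj e P ((1 : Matrix (Fin 2) (Fin 2) F) ⊗ₖ Z) := fun Y => by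
    refine centralizer_tensor e P fun X => ?_
    rw [← heP]
    exact hS.commute A (by simp) B (by simp) hAB _ (hA ▸ ⟨X, rfl⟩) _ (hB ▸ ⟨Y, rfl⟩)
  obtain ⟨T, hT, hTconj⟩ := exists_swap e P
  intro h hh
  obtain ⟨C, hC, hiff⟩ := hS.perm h hh A (by simp)
  have himg : ∀ X, conjAlg h (tconj e P (X ⊗ₖ (1 : Matrix (Fin 2) (Fin 2) F))) ∈ C :=
    fun X => (hiff _).1 (hA ▸ ⟨X, heP X⟩)
  rcases Finset.mem_insert.1 hC with rfl | hC'
  · refine tensor_le_quadSimilarityGroup e P (mem_tensorProductSubgroup_of_normalizes e P fun X => ?_)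
    obtain ⟨X', hX'⟩ := hA ▸ himg X
    exact ⟨X', hX'.symm.trans (heP X')⟩
  · rw [Finset.mem_singleton] at hC'
    subst hC'
    have hTh : T * h ∈ Cfsg.Geo.tensorProductSubgroup 2 2 e P := by
      refine mem_tensorProductSubgroup_of_normalizes e P fun X => ?_
      obtain ⟨Y, hY⟩ := hB ▸ himg X
      obtain ⟨Z, hZ⟩ := hcommAB Y
      exact ⟨Z, by rw [conjAlg_mul, ← hY]; exact (congrArg _ hZ).trans (hTconj _ _)⟩
    have := mul_mem (inv_mem hT) (tensor_le_quadSimilarityGroup e P hTh)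
    rwa [inv_mul_cancel_left] at this

end CfsgLib.AschLinear
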