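import Mathlib
import Cfsg.Agent.Aschbacher.Clifford

/-!
The monomial case of the reduction: the frame decomposition, and the small fields over which a
monomial group preserves a vector, a quadratic form or a hermitian form.
-/

set_option autoImplicit false

namespace CfsgLib.AschLinear

open Matrix Module
open CfsgLib.Aschbacher

variable {ι : Type} [Fintype ι] [DecidableEq ι] {F : Type*} [Field F]

local notation "GLv" => Matrix.GeneralLinearGroup ι F

/-- The lines of a frame. -/
noncomputable def frame {n : ℕ} (e : ι ≃ Fin n) (b : Basis ι F (ι → F)) (k : Fin n) :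
    Submodule F (ι → F) :=
  Submodule.span F {b (e.symm k)}

theorem isMDecomposition_frame {n : ℕ} (hn : 2 ≤ n) (e : ι ≃ Fin n) (b : Basis ι F (ι → F)) :
    Cfsg.Geo.IsMDecomposition 1 (frame e b) where
  two_le := hn
  pos := one_pos
  finrank_eq k := finrank_span_singleton (b.ne_zero _)
  indep := (b.linearIndependent.comp e.symm e.symm.injective).iSupIndep_span_singleton
  iSup_eq_top := by
    rw [eq_top_iff, ← b.span_eq, Submodule.span_le]
    rintro _ ⟨i, rfl⟩
    exact Submodule.mem_iSup_of_mem (e i) (Submodule.subset_span (by simp))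

theorem le_decompositionStabilizer_frame {n : ℕ} (e : ι ≃ Fin n) {b : Basis ι F (ι → F)}
    {H : Subgroup GLv} (hH : IsMonomial H b) :
    H ≤ Cfsg.Geo.decompositionStabilizer (frame e b) := by
  intro h hh
  obtain ⟨σ, c, hc⟩ := hH h hh
  refine ⟨(e.symm.trans σ).trans e, fun k => ?_⟩
  have hne : c (e.symm k) ≠ 0 := by
    intro h0
    have h1 := hc (e.symm k)
    rw [h0, zero_smul] at h1
    exact b.ne_zero (e.symm k) (mulVec_inj h (h1.trans (Matrix.mulVec_zero _).symm))
  simp only [frame, Submodule.map_span, Set.image_singleton, Matrix.toLin'_apply, Equiv.trans_apply,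
    Equiv.symm_apply_apply, hc]
  exact Submodule.span_singleton_smul_eq (isUnit_iff_ne_zero.2 hne) _

theorem coeff_ne_zero {b : Basis ι F (ι → F)} {h : GLv} {σ : Equiv.Perm ι} {c : ι → F}
    (hc : ∀ i, h.val *ᵥ b i = c i • b (σ i)) (i : ι) : c i ≠ 0 := by
  intro h0
  have h1 := hc i
  rw [h0, zero_smul] at h1
  exact b.ne_zero i (mulVec_inj h (h1.trans (Matrix.mulVec_zero _).symm))

theorem repr_monomial {b : Basis ι F (ι → F)} {h : GLv} {σ : Equiv.Perm ι} {c : ι → F}
    (hc : ∀ i, h.val *ᵥ b i = c i • b (σ i)) (v : ι → F) (i : ι) :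
    b.repr (h.val *ᵥ v) (σ i) = c i * b.repr v i := by
  have h1 : h.val *ᵥ v = ∑ j, (c j * b.repr v j) • b (σ j) := by
    conv_lhs => rw [← b.sum_repr v]
    rw [mulVec_sum]
    exact Finset.sum_congr rfl fun j _ => by rw [mulVec_smul, hc, smul_smul, mul_comm]
  rw [h1, ← Equiv.sum_comp σ.symm]
  simp only [Equiv.apply_symm_apply]
  rw [b.repr_sum_self, Equiv.symm_apply_apply]

/-- Over two elements a monomial group fixes the sum of the frame vectors. -/
theorem not_irreducible_of_monomial_two [Fintype F] (hF : Fintype.card F = 2)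
    (hn : 2 ≤ Fintype.card ι) {b : Basis ι F (ι → F)} {H : Subgroup GLv} (hH : IsMonomial H b) :
    ¬ Cfsg.Geo.ActsIrreducibly (Cfsg.Geo.matrixSet H) := by
  intro hirr
  set s := ∑ i, b i with hs
  have hone : ∀ x : F, x ≠ 0 → x = 1 := by
    intro x hx
    have := FiniteField.pow_card_sub_one_eq_one x hx
    rwa [hF, pow_one] at this
  have hfix : ∀ h ∈ H, h.val *ᵥ s = s := by
    intro h hh
    obtain ⟨σ, c, hc⟩ := hH h hh
    rw [hs, mulVec_sum]
    simp only [hc, hone _ (coeff_ne_zero hc _), one_smul]
    exact Equiv.sum_comp σ _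
  obtain ⟨i, j, hij⟩ := Fintype.exists_pair_of_one_lt_card (α := ι) (by omega)
  have hs0 : s ≠ 0 := by
    intro h0
    have h1 : b.repr s i = 1 := by simp [hs, Finsupp.single_apply]
    simp [h0] at h1
  rcases eq_bot_or_top_of_invariant hirr (W := F ∙ s) (fun h hh v hv => by
    obtain ⟨a, rfl⟩ := Submodule.mem_span_singleton.1 hv
    rw [mulVec_smul, hfix h hh]
    exact Submodule.smul_mem _ _ (Submodule.mem_span_singleton_self s)) with h | h
  · exact hs0 (Submodule.span_singleton_eq_bot.1 h)
  · have h1 := finrank_span_singleton (K := F) hs0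
    rw [h, finrank_top, finrank_pi] at h1
    omega

/-- The diagonal hermitian form of a frame. -/
noncomputable def diagForm (σ : F ≃+* F) (b : Basis ι F (ι → F)) (u v : ι → F) : F :=
  ∑ i, b.repr u i * σ (b.repr v i)

theorem isUnitaryForm_diagForm {σ : F ≃+* F} (hne : σ ≠ RingEquiv.refl F)
    (hinv : ∀ a, σ (σ a) = a) (b : Basis ι F (ι → F)) :
    Cfsg.Geo.IsUnitaryForm σ (diagForm σ b) where
  ne_refl := hne
  involutive := hinv
  add_left x y v := by simp [diagForm, add_mul, Finset.sum_add_distrib]
  smul_left c x v := by simp [diagForm, Finset.mul_sum, mul_assoc]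
  herm u v := by
    simp only [diagForm, map_sum, map_mul, hinv]
    exact Finset.sum_congr rfl fun i _ => mul_comm _ _
  nondegenerate v hv := by
    obtain ⟨i, hi⟩ : ∃ i, b.repr v i ≠ 0 := by
      by_contra hcon
      push Not at hcon
      exact hv ((LinearEquiv.map_eq_zero_iff b.repr).1 (Finsupp.ext hcon))
    refine ⟨⟨b i, ?_⟩, ⟨b i, ?_⟩⟩
    · simpa [diagForm, Finsupp.single_apply, ite_mul, apply_ite σ] using hi
    · simpa [diagForm, Finsupp.single_apply, mul_ite, apply_ite σ] using hi

theorem le_similarityGroup_diagForm {σ : F ≃+* F} (hnorm : ∀ a : F, a ≠ 0 → a * σ a = 1)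
    {b : Basis ι F (ι → F)} {H : Subgroup GLv} (hH : IsMonomial H b) :
    H ≤ Cfsg.Geo.similarityGroup (diagForm σ b) := by
  intro h hh
  obtain ⟨π, c, hc⟩ := hH h hh
  refine ⟨1, fun u v => ?_⟩
  rw [Units.val_one, one_mul, diagForm, diagForm, ← Equiv.sum_comp π]
  refine Finset.sum_congr rfl fun i _ => ?_
  rw [repr_monomial hc, repr_monomial hc, map_mul,
    show c i * b.repr u i * (σ (c i) * σ (b.repr v i)) =
      (c i * σ (c i)) * (b.repr u i * σ (b.repr v i)) by ring, hnorm _ (coeff_ne_zero hc i), one_mul]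

/-- The sum of squares of the coordinates in a frame. -/
noncomputable def diagQuad (b : Basis ι F (ι → F)) (v : ι → F) : F := ∑ i, b.repr v i ^ 2

theorem polar_diagQuad (b : Basis ι F (ι → F)) (u v : ι → F) :
    QuadraticMap.polar (diagQuad b) u v = ∑ i, 2 * (b.repr u i * b.repr v i) := by
  simp only [QuadraticMap.polar, diagQuad, ← Finset.sum_sub_distrib]
  refine Finset.sum_congr rfl fun i _ => ?_
  rw [map_add, Finsupp.add_apply]
  ring

theorem isNondegenerateQuadraticForm_diagQuad (h2 : (2 : F) ≠ 0) (b : Basis ι F (ι → F)) :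
    Cfsg.Geo.IsNondegenerateQuadraticForm (diagQuad b) where
  smul c v := by simp [diagQuad, Finset.mul_sum, mul_pow]
  polar_bilinear :=
    { add_left := fun x y v => by
        simp only [polar_diagQuad, map_add, Finsupp.add_apply, add_mul, mul_add, Finset.sum_add_distrib]
      smul_left := fun c x v => by
        simp only [polar_diagQuad, map_smul, Finsupp.smul_apply, smul_eq_mul, Finset.mul_sum]
        exact Finset.sum_congr rfl fun i _ => by ring
      add_right := fun v x y => by
        simp only [polar_diagQuad, map_add, Finsupp.add_apply, mul_add, Finset.sum_add_distrib]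
      smul_right := fun c v x => by
        simp only [polar_diagQuad, map_smul, Finsupp.smul_apply, smul_eq_mul, Finset.mul_sum]
        exact Finset.sum_congr rfl fun i _ => by ring }
  nondegenerate v hv := by
    obtain ⟨i, hi⟩ : ∃ i, b.repr v i ≠ 0 := by
      by_contra hcon
      push Not at hcon
      exact hv ((LinearEquiv.map_eq_zero_iff b.repr).1 (Finsupp.ext hcon))
    refine ⟨⟨b i, ?_⟩, ⟨b i, ?_⟩⟩ <;>
      · rw [polar_diagQuad, Finset.sum_eq_single i (fun j _ hj => by simp [Finsupp.single_apply, hj.symm])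
          (by simp)]
        simpa using mul_ne_zero h2 hi

theorem le_quadSimilarityGroup_diagQuad (hsq : ∀ a : F, a ≠ 0 → a ^ 2 = 1)
    {b : Basis ι F (ι → F)} {H : Subgroup GLv} (hH : IsMonomial H b) :
    H ≤ Cfsg.Geo.quadSimilarityGroup (diagQuad b) := by
  intro h hh
  obtain ⟨π, c, hc⟩ := hH h hh
  refine ⟨1, fun v => ?_⟩
  rw [Units.val_one, one_mul, diagQuad, diagQuad, ← Equiv.sum_comp π]
  refine Finset.sum_congr rfl fun i _ => ?_
  rw [repr_monomial hc, mul_pow, hsq _ (coeff_ne_zero hc i), one_mul]

/-- A monomial irreducible group over a field with at most four elements preserves a form. -/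
theorem monomial_small_field [Fintype F] (hF : Fintype.card F < 5) (hn : 2 ≤ Fintype.card ι)
    {b : Basis ι F (ι → F)} {H : Subgroup GLv} (hH : IsMonomial H b)
    (hirr : Cfsg.Geo.ActsIrreducibly (Cfsg.Geo.matrixSet H)) :
    (Odd (Fintype.card F) ∧ ∃ Q : (ι → F) → F, Cfsg.Geo.IsNondegenerateQuadraticForm Q ∧
        H ≤ Cfsg.Geo.quadSimilarityGroup Q) ∨
    (∃ (σ : F ≃+* F) (f : (ι → F) → (ι → F) → F), Cfsg.Geo.IsUnitaryForm σ f ∧
        H ≤ Cfsg.Geo.similarityGroup f) := by
  have h1 : 1 < Fintype.card F := Fintype.one_lt_card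
  rcases (by omega : Fintype.card F = 2 ∨ Fintype.card F = 3 ∨ Fintype.card F = 4) with h | h | h
  · exact absurd hirr (not_irreducible_of_monomial_two h hn hH)
  · left
    have hsq : ∀ a : F, a ≠ 0 → a ^ 2 = 1 := fun a ha => by
      have := FiniteField.pow_card_sub_one_eq_one a ha
      rwa [h] at this
    have h2 : (2 : F) ≠ 0 := by
      intro h0
      have h3 : (3 : F) = 0 := by
        have := FiniteField.cast_card_eq_zero F
        rw [h] at this
        exact_mod_cast this
      have : (1 : F) = 0 := by linear_combination h3 - h0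
      exact one_ne_zero this
    exact ⟨h ▸ by decide, diagQuad b, isNondegenerateQuadraticForm_diagQuad h2 b,
      le_quadSimilarityGroup_diagQuad hsq hH⟩
  · right
    have : Fact (Nat.Prime 2) := ⟨Nat.prime_two⟩
    have hchar : CharP F 2 := by
      obtain ⟨p, hp⟩ := CharP.exists F
      obtain ⟨n, hpn, hcard⟩ := FiniteField.card F p
      have hdvd : p ∣ 2 ^ 2 := by
        rw [show (2 : ℕ) ^ 2 = 4 from rfl, ← h, hcard]
        exact dvd_pow_self p n.ne_zero
      rwa [← (Nat.prime_dvd_prime_iff_eq hpn Nat.prime_two).1 (hpn.dvd_of_dvd_pow hdvd)]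
    have hp4 : ∀ a : F, a ^ 4 = a := fun a => by rw [← h]; exact FiniteField.pow_card a
    refine ⟨frobeniusEquiv F 2, diagForm (frobeniusEquiv F 2) b,
      isUnitaryForm_diagForm ?_ ?_ b, le_similarityGroup_diagForm ?_ hH⟩
    · intro he
      have hall : ∀ a : F, a ^ 2 = a := fun a => by
        have h2 := congrArg (fun e : F ≃+* F => e a) he
        simpa [frobeniusEquiv_apply, frobenius_def] using h2
      have hle : Fintype.card F ≤ 2 := by
        classical
        have hsub : (Finset.univ : Finset F) ⊆ ({0, 1} : Finset F) := by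
          intro a _
          rcases eq_or_ne a 0 with rfl | ha
          · simp
          · have h3 : a * a = a := by rw [← sq]; exact hall a
            simp [(mul_left_eq_self₀.1 h3).resolve_right ha]
        exact (Finset.card_le_card hsub).trans Finset.card_le_two
      omega
    · intro a
      rw [frobeniusEquiv_apply, frobeniusEquiv_apply, frobenius_def, frobenius_def, ← pow_mul]
      exact hp4 a
    · intro a ha
      rw [frobeniusEquiv_apply, frobenius_def]
      refine mul_left_cancel₀ ha ?_
      rw [mul_one]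
      linear_combination hp4 a

end CfsgLib.AschLinear
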