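import Mathlib
import Cfsg.Agent.Aschbacher.Clifford
import Cfsg.Agent.Aschbacher.InvariantForms
import Cfsg.Agent.AschLinear.Monomial

/-!
Symplectic-type two-groups in dimension four: groups generated by two commuting pairs of
anticommuting involutions together with a scalar square root of minus one.
-/

set_option autoImplicit false

namespace CfsgLib.AschLinear.Pauli

open Matrix Module

variable {ι : Type} [Fintype ι] [DecidableEq ι] {F : Type*} [Field F]

local notation "GLm" => Matrix.GeneralLinearGroup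

/-- A scalar matrix. -/
def sc (c : Fˣ) : GLm ι F := Units.map (Matrix.scalar ι : F →+* Matrix ι ι F).toMonoidHom c

@[simp] theorem sc_val (c : Fˣ) : (sc c : GLm ι F).val = (c : F) • (1 : Matrix ι ι F) := by
  simp [sc, Matrix.smul_one_eq_diagonal]

theorem sc_mul (c d : Fˣ) : (sc (c * d) : GLm ι F) = sc c * sc d := map_mul _ _ _

theorem sc_one : (sc 1 : GLm ι F) = 1 := map_one _

theorem sc_pow (c : Fˣ) (k : ℕ) : (sc (c ^ k) : GLm ι F) = sc c ^ k := map_pow _ _ _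

theorem sc_comm (c : Fˣ) (g : GLm ι F) : sc c * g = g * sc c := by
  apply Units.ext
  simp

theorem sc_injective [Nonempty ι] : Function.Injective (sc : Fˣ → GLm ι F) := by
  intro c d h
  have h1 := congrArg Units.val h
  simp only [sc_val] at h1
  obtain ⟨i⟩ := ‹Nonempty ι›
  have h2 := congrFun (congrFun h1 i) i
  exact Units.ext (by simpa using h2)

/-- The central sign. -/
def neg1 : GLm ι F := sc (-1)

theorem neg1_val : (neg1 : GLm ι F).val = -(1 : Matrix ι ι F) := by simp [neg1]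

theorem neg1_mul_self : (neg1 : GLm ι F) * neg1 = 1 := by
  rw [neg1, ← sc_mul, neg_one_mul, neg_neg, sc_one]

theorem neg1_comm (g : GLm ι F) : neg1 * g = g * neg1 := sc_comm _ g

/-- `g` and `h` commute up to the sign `s`. -/
def CommSign (s : Fˣ) (g h : GLm ι F) : Prop := g * h = sc s * (h * g)

theorem CommSign.symm {s : Fˣ} (hs : s * s = 1) {g h : GLm ι F} (h1 : CommSign s g h) :
    CommSign s h g := by
  rw [CommSign, h1, ← mul_assoc, ← sc_mul, hs, sc_one, one_mul]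

theorem commSign_one {g h : GLm ι F} : CommSign 1 g h ↔ g * h = h * g := by
  rw [CommSign, sc_one, one_mul]

theorem CommSign.mul_left {s t : Fˣ} {g g' h : GLm ι F} (h1 : CommSign s g h) (h2 : CommSign t g' h) :
    CommSign (s * t) (g * g') h := by
  unfold CommSign at *
  rw [mul_assoc, h2, ← mul_assoc g, ← sc_comm, mul_assoc (sc t), ← mul_assoc g, h1, sc_mul]
  simp only [← mul_assoc]
  rw [sc_comm t (sc s)]

theorem commSign_self (g : GLm ι F) : CommSign 1 g g := commSign_one.2 rfl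

theorem commSign_sc (c : Fˣ) (g : GLm ι F) : CommSign 1 (sc c) g := commSign_one.2 (sc_comm c g)

theorem one_commSign (g : GLm ι F) : CommSign 1 1 g := commSign_one.2 (by rw [one_mul, mul_one])

theorem CommSign.unique [Nonempty ι] {s t : Fˣ} {g h : GLm ι F} (h1 : CommSign s g h)
    (h2 : CommSign t g h) : s = t :=
  sc_injective (mul_right_cancel (Eq.trans (Eq.symm h1) h2))

/-- An element squaring to `s` and conjugate to its negative has determinant `s ^ 2`. -/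
theorem det_eq_sq_of_anticommute (hn : Fintype.card ι = 4) (h2 : (2 : F) ≠ 0) {s : F}
    {x : Matrix ι ι F} (hx : x * x = s • (1 : Matrix ι ι F)) (y : GLm ι F)
    (hxy : x * y.val = -(y.val * x)) : x.det = s ^ 2 := by
  have hconj : y.val * x * (y⁻¹ : GLm ι F).val = -x := by
    have : y.val * x = -(x * y.val) := by rw [hxy, neg_neg]
    rw [this, neg_mul, mul_assoc, Units.mul_inv, mul_one]
  have hp : x.charpoly = (-x).charpoly := by
    rw [← hconj, Matrix.coe_units_inv]; exact (Matrix.charpoly_units_conj y x).symm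
  have hmul : x.charpoly * (-x).charpoly = (Polynomial.X ^ 2 - Polynomial.C s) ^ 4 := by
    rw [Matrix.charpoly, Matrix.charpoly, ← Matrix.det_mul]
    have : x.charmatrix * (-x).charmatrix =
        (Polynomial.X ^ 2 - Polynomial.C s) • (1 : Matrix ι ι (Polynomial F)) := by
      rw [Matrix.charmatrix, Matrix.charmatrix, map_neg, sub_neg_eq_add]
      set N := (Polynomial.C.mapMatrix : Matrix ι ι F →+* Matrix ι ι (Polynomial F)) x with hN
      have hNN : N * N = Polynomial.C s • (1 : Matrix ι ι (Polynomial F)) := by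
        rw [hN, ← map_mul, hx]
        ext a b
        by_cases hab : a = b <;> simp [Matrix.one_apply, hab]
      have hc : N * Matrix.scalar ι Polynomial.X = Matrix.scalar ι Polynomial.X * N :=
        (Matrix.scalar_commute _ (fun r => Commute.all _ r) N).symm.eq
      rw [mul_add, sub_mul, sub_mul, hc, hNN, ← map_mul, sub_smul, Matrix.scalar_apply,
        ← Matrix.smul_one_eq_diagonal, ← sq]
      abel
    rw [this, Matrix.det_smul, Matrix.det_one, mul_one, hn]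
  rw [← hp, ← sq, show (4 : ℕ) = 2 * 2 from rfl, pow_mul] at hmul
  have hq2 : x.charpoly = (Polynomial.X ^ 2 - Polynomial.C s) ^ 2 := by
    rcases sq_eq_sq_iff_eq_or_eq_neg.1 hmul with h | h
    · exact h
    · exfalso
      have hm : ((Polynomial.X ^ 2 - Polynomial.C s) ^ 2).Monic :=
        (Polynomial.monic_X_pow_sub_C s two_ne_zero).pow 2
      have h1 := (Matrix.charpoly_monic x).leadingCoeff
      rw [h, Polynomial.leadingCoeff_neg, hm.leadingCoeff] at h1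
      exact h2 (by linear_combination -h1)
  rw [Matrix.det_eq_sign_charpoly_coeff, hn, hq2, Polynomial.coeff_zero_eq_eval_zero]
  simp
  ring

/-- Two commuting pairs of anticommuting involutions and a square root of minus one. -/
structure IsQuad (i : Fˣ) (x₁ x₂ y₁ y₂ : GLm ι F) : Prop where
  card : Fintype.card ι = 4
  two : (2 : F) ≠ 0
  sq_i : i * i = -1
  x₁_sq : x₁ * x₁ = 1
  x₂_sq : x₂ * x₂ = 1
  y₁_sq : y₁ * y₁ = 1
  y₂_sq : y₂ * y₂ = 1
  xx : CommSign 1 x₁ x₂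
  yy : CommSign 1 y₁ y₂
  x₁y₁ : CommSign (-1) x₁ y₁
  x₂y₂ : CommSign (-1) x₂ y₂
  x₁y₂ : CommSign 1 x₁ y₂
  x₂y₁ : CommSign 1 x₂ y₁

section Quad

variable {i : Fˣ} {x₁ x₂ y₁ y₂ : GLm ι F} (hq : IsQuad i x₁ x₂ y₁ y₂)

include hq

theorem IsQuad.nonempty : Nonempty ι := Fintype.card_pos_iff.1 (by rw [hq.card]; norm_num)

theorem IsQuad.neg_one_ne_one : (-1 : Fˣ) ≠ 1 := by
  intro h
  have h1 : (-1 : F) = 1 := by simpa using congrArg Units.val h
  exact hq.two (by linear_combination -h1)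

theorem IsQuad.i_pow_four : i ^ 4 = 1 := by
  rw [show (4 : ℕ) = 2 * 2 from rfl, pow_mul, pow_two i, hq.sq_i, neg_one_sq]

theorem IsQuad.neg_one_eq : (-1 : Fˣ) = i ^ 2 := by rw [sq, hq.sq_i]

/-- Sign of a pair of commuting involutions on a vector. -/
theorem IsQuad.exists_eigen : ∃ v : ι → F, v ≠ 0 ∧ x₁.val *ᵥ v = v ∧ x₂.val *ᵥ v = v := by
  have := hq.nonempty
  have hsq : ∀ {x : GLm ι F}, x * x = 1 → ∀ w : ι → F, x.val *ᵥ (x.val *ᵥ w) = w := fun hx w => by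
    rw [mulVec_mulVec, ← Units.val_mul, hx, Units.val_one, one_mulVec]
  have hanti : ∀ {x y : GLm ι F}, CommSign (-1) x y → ∀ w : ι → F,
      x.val *ᵥ (y.val *ᵥ w) = -(y.val *ᵥ (x.val *ᵥ w)) := fun {x y} h w => by
    rw [mulVec_mulVec, ← Units.val_mul, h]
    simp [neg_mulVec, ← mulVec_mulVec]
  have hcomm : ∀ {x y : GLm ι F}, CommSign 1 x y → ∀ w : ι → F,
      x.val *ᵥ (y.val *ᵥ w) = y.val *ᵥ (x.val *ᵥ w) := fun {x y} h w => by
    rw [mulVec_mulVec, ← Units.val_mul, commSign_one.1 h, Units.val_mul, ← mulVec_mulVec]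
  obtain ⟨v₀, hv₀, hx₀⟩ : ∃ v : ι → F, v ≠ 0 ∧ x₁.val *ᵥ v = v := by
    obtain ⟨w, hw⟩ := exists_ne (0 : ι → F)
    rcases eq_or_ne (w + x₁.val *ᵥ w) 0 with h | h
    · refine ⟨y₁.val *ᵥ w, fun h0 => hw ?_, ?_⟩
      · rw [← hsq hq.y₁_sq w, h0, mulVec_zero]
      · rw [hanti hq.x₁y₁, eq_neg_of_add_eq_zero_right h, mulVec_neg, neg_neg]
    · refine ⟨_, h, ?_⟩
      rw [mulVec_add, hsq hq.x₁_sq, add_comm]
  rcases eq_or_ne (v₀ + x₂.val *ᵥ v₀) 0 with h | h
  · refine ⟨y₂.val *ᵥ v₀, fun h0 => hv₀ ?_, ?_, ?_⟩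
    · rw [← hsq hq.y₂_sq v₀, h0, mulVec_zero]
    · rw [hcomm hq.x₁y₂, hx₀]
    · rw [hanti hq.x₂y₂, eq_neg_of_add_eq_zero_right h, mulVec_neg, neg_neg]
  · refine ⟨_, h, ?_, ?_⟩
    · rw [mulVec_add, hx₀, hcomm hq.xx, hx₀]
    · rw [mulVec_add, hsq hq.x₂_sq, add_comm]

/-- The adapted basis: joint eigenvectors of the first pair, permuted by the second. -/
theorem IsQuad.exists_basis : ∃ b : Basis (Fin 2 × Fin 2) F (ι → F),
    (∀ k, x₁.val *ᵥ b k = (-1 : F) ^ (k.1 : ℕ) • b k) ∧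
    (∀ k, x₂.val *ᵥ b k = (-1 : F) ^ (k.2 : ℕ) • b k) ∧
    (∀ k, y₁.val *ᵥ b k = b (k.1 + 1, k.2)) ∧
    (∀ k, y₂.val *ᵥ b k = b (k.1, k.2 + 1)) := by
  obtain ⟨v, hv, hv1, hv2⟩ := hq.exists_eigen
  let e : Fin 2 × Fin 2 → (ι → F) := fun k =>
    (y₁ ^ (k.1 : ℕ) * y₂ ^ (k.2 : ℕ)).val *ᵥ v
  have hs : ∀ (s : Fˣ) (x g : GLm ι F), CommSign s x g → x.val *ᵥ v = v →
      x.val *ᵥ (g.val *ᵥ v) = (s : F) • (g.val *ᵥ v) := fun s x g h hxv => by
    rw [mulVec_mulVec, ← Units.val_mul, h, Units.val_mul, Units.val_mul, ← mulVec_mulVec,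
      ← mulVec_mulVec, hxv, sc_val, smul_mulVec, one_mulVec]
  have hneg : ((-1 : Fˣ) * -1) = 1 := by simp
  have e1 : ∀ k, x₁.val *ᵥ e k = (-1 : F) ^ (k.1 : ℕ) • e k := by
    rintro ⟨a, c⟩
    have h2 : CommSign 1 (y₂ ^ (c : ℕ)) x₁ := by
      fin_cases c
      · simpa using one_commSign x₁
      · simpa using hq.x₁y₂.symm (one_mul 1)
    fin_cases a
    · have h := ((one_commSign x₁).mul_left h2).symm (by simp)
      simpa [e] using hs _ _ _ h hv1
    · have h := ((hq.x₁y₁.symm hneg).mul_left h2).symm (by simp)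
      simpa [e] using hs _ _ _ h hv1
  have e2 : ∀ k, x₂.val *ᵥ e k = (-1 : F) ^ (k.2 : ℕ) • e k := by
    rintro ⟨a, c⟩
    have h1 : CommSign 1 (y₁ ^ (a : ℕ)) x₂ := by
      fin_cases a
      · simpa using one_commSign x₂
      · simpa using hq.x₂y₁.symm (one_mul 1)
    fin_cases c
    · have h := (h1.mul_left (one_commSign x₂)).symm (by simp)
      simpa [e] using hs _ _ _ h hv2
    · have h := (h1.mul_left (hq.x₂y₂.symm hneg)).symm (by simp)
      simpa [e] using hs _ _ _ h hv2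
  have e3 : ∀ k, y₁.val *ᵥ e k = e (k.1 + 1, k.2) := by
    rintro ⟨a, c⟩
    simp only [e, mulVec_mulVec, ← Units.val_mul, ← mul_assoc]
    fin_cases a
    · simp
    · simp [hq.y₁_sq]
  have e4 : ∀ k, y₂.val *ᵥ e k = e (k.1, k.2 + 1) := by
    rintro ⟨a, c⟩
    have h1 : y₂ * y₁ ^ (a : ℕ) = y₁ ^ (a : ℕ) * y₂ := by
      fin_cases a
      · simp
      · simpa using (commSign_one.1 hq.yy).symm
    simp only [e, mulVec_mulVec, ← Units.val_mul, ← mul_assoc, h1]
    fin_cases c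
    · simp
    · simp [mul_assoc, hq.y₂_sq]
  have hne : ∀ k, e k ≠ 0 := fun k h =>
    hv (CfsgLib.Aschbacher.mulVec_inj _ (h.trans (mulVec_zero _).symm))
  -- four joint eigenvectors with distinct signs
  have hli : LinearIndependent F e := by
    rw [Fintype.linearIndependent_iff]
    intro g hg
    have g1 := congrArg (fun w => x₁.val *ᵥ w) hg
    have g2 := congrArg (fun w => x₂.val *ᵥ w) hg
    have g3 := congrArg (fun w => (x₁.val * x₂.val) *ᵥ w) hg
    simp only [Fintype.sum_prod_type, Fin.sum_univ_two, mulVec_add, mulVec_smul, mulVec_zero,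
      ← mulVec_mulVec, e1, e2] at g1 g2 g3 hg
    simp only [Fin.val_zero, Fin.val_one, pow_zero, pow_one, one_smul, neg_smul, smul_neg,
      mulVec_neg, e1, mulVec_smul] at g1 g2 g3
    have h4 : (2 : F) * 2 ≠ 0 := mul_ne_zero hq.two hq.two
    have key : ∀ k, (2 * 2 : F) • (g k • e k) = 0 := by
      rintro ⟨a, c⟩
      fin_cases a <;> fin_cases c <;> simp only [Fin.zero_eta, Fin.mk_one]
      · linear_combination (norm := module) hg + g1 + g2 + g3
      · linear_combination (norm := module) hg + g1 - g2 - g3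
      · linear_combination (norm := module) hg - g1 + g2 - g3
      · linear_combination (norm := module) hg - g1 - g2 + g3
    intro k
    have h5 := (smul_eq_zero.1 (key k)).resolve_left h4
    exact (smul_eq_zero.1 h5).resolve_right (hne k)
  refine ⟨basisOfLinearIndependentOfCardEqFinrank hli (by simp [hq.card]), ?_, ?_, ?_, ?_⟩ <;>
    intro k <;> simp [e1, e2, e3, e4]

theorem IsQuad.scalar_of_commute {M : Matrix ι ι F}
    (h₁ : M * x₁.val = x₁.val * M) (h₂ : M * x₂.val = x₂.val * M)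
    (h₃ : M * y₁.val = y₁.val * M) (h₄ : M * y₂.val = y₂.val * M) :
    ∃ c : F, M = c • (1 : Matrix ι ι F) := by
  obtain ⟨b, e1, e2, e3, e4⟩ := hq.exists_basis
  have hsign : ∀ (x : GLm ι F) (s : Fin 2 × Fin 2 → F), M * x.val = x.val * M →
      (∀ k, x.val *ᵥ b k = s k • b k) → ∀ k l, s k ≠ s l → b.repr (M *ᵥ b k) l = 0 := by
    intro x s hx hs k l hkl
    have h : x.val *ᵥ (M *ᵥ b k) = s k • (M *ᵥ b k) := by
      rw [mulVec_mulVec, ← hx, ← mulVec_mulVec, hs, mulVec_smul]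
    have hgen : ∀ w, b.repr (x.val *ᵥ w) l = s l * b.repr w l := by
      intro w
      conv_lhs => rw [← b.sum_repr w, mulVec_sum]
      simp [mulVec_smul, hs, Finsupp.single_apply, mul_comm]
    have hl := hgen (M *ᵥ b k)
    rw [h, map_smul, Finsupp.smul_apply, smul_eq_mul] at hl
    by_contra hne
    exact hkl (mul_right_cancel₀ hne hl)
  have hneg : (-1 : F) ≠ 1 := fun h => hq.two (by linear_combination -h)
  have hdiag : ∀ k, M *ᵥ b k = b.repr (M *ᵥ b k) k • b k := by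
    intro k
    conv_lhs => rw [← b.sum_repr (M *ᵥ b k)]
    refine Finset.sum_eq_single k (fun l _ hl => ?_) (fun h => absurd (Finset.mem_univ k) h)
    obtain ⟨k₁, k₂⟩ := k
    obtain ⟨l₁, l₂⟩ := l
    rcases eq_or_ne l₁ k₁ with rfl | h1
    · have h2 : k₂ ≠ l₂ := fun h => hl (by rw [h])
      rw [hsign x₂ _ h₂ e2 (l₁, k₂) (l₁, l₂) (by
        fin_cases k₂ <;> fin_cases l₂ <;> simp_all [hneg.symm]), zero_smul]
    · rw [hsign x₁ _ h₁ e1 (k₁, k₂) (l₁, l₂) (by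
        fin_cases k₁ <;> fin_cases l₁ <;> simp_all [hneg.symm]), zero_smul]
  have step : ∀ (y : GLm ι F) (k l : Fin 2 × Fin 2), M * y.val = y.val * M → y.val *ᵥ b k = b l →
      b.repr (M *ᵥ b l) l = b.repr (M *ᵥ b k) k := by
    intro y k l hy hkl
    conv_lhs => rw [← hkl, mulVec_mulVec, hy, ← mulVec_mulVec, hdiag k, mulVec_smul, hkl,
      map_smul, b.repr_self]
    simp
  refine ⟨b.repr (M *ᵥ b (0, 0)) (0, 0), Matrix.toLin'.injective (b.ext fun k => ?_)⟩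
  rw [Matrix.toLin'_apply, Matrix.toLin'_apply, smul_mulVec, one_mulVec, hdiag k]
  congr 1
  have a1 := step y₁ (0, 0) (1, 0) h₃ (e3 _)
  have a2 := step y₂ (0, 0) (0, 1) h₄ (e4 _)
  have a3 := step y₁ (0, 1) (1, 1) h₃ (e3 _)
  obtain ⟨k₁, k₂⟩ := k
  fin_cases k₁ <;> fin_cases k₂
  · rfl
  · exact a2
  · exact a1
  · exact a3.trans a2

omit hq

/-- The group generated by the quadruple and the scalar. -/
def grp (i : Fˣ) (x₁ x₂ y₁ y₂ : GLm ι F) : Subgroup (GLm ι F) :=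
  Subgroup.closure {sc i, x₁, x₂, y₁, y₂}

/-- The normal forms. -/
def word (i : Fˣ) (x₁ x₂ y₁ y₂ : GLm ι F) (w : Fin 4 × (Fin 2 × Fin 2) × (Fin 2 × Fin 2)) : GLm ι F :=
  sc i ^ (w.1 : ℕ) * (x₁ ^ (w.2.1.1 : ℕ) * x₂ ^ (w.2.1.2 : ℕ) * (y₁ ^ (w.2.2.1 : ℕ) * y₂ ^ (w.2.2.2 : ℕ)))

include hq

theorem IsQuad.sc_i_mem : sc i ∈ grp i x₁ x₂ y₁ y₂ := Subgroup.subset_closure (by simp)

theorem IsQuad.x₁_mem : x₁ ∈ grp i x₁ x₂ y₁ y₂ := Subgroup.subset_closure (by simp)

theorem IsQuad.x₂_mem : x₂ ∈ grp i x₁ x₂ y₁ y₂ := Subgroup.subset_closure (by simp)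

theorem IsQuad.y₁_mem : y₁ ∈ grp i x₁ x₂ y₁ y₂ := Subgroup.subset_closure (by simp)

theorem IsQuad.y₂_mem : y₂ ∈ grp i x₁ x₂ y₁ y₂ := Subgroup.subset_closure (by simp)

theorem IsQuad.word_mem (w : Fin 4 × (Fin 2 × Fin 2) × (Fin 2 × Fin 2)) :
    word i x₁ x₂ y₁ y₂ w ∈ grp i x₁ x₂ y₁ y₂ :=
  mul_mem (pow_mem hq.sc_i_mem _) (mul_mem (mul_mem (pow_mem hq.x₁_mem _) (pow_mem hq.x₂_mem _))
    (mul_mem (pow_mem hq.y₁_mem _) (pow_mem hq.y₂_mem _)))

theorem IsQuad.sign_sq {s : Fˣ} (hs : s = 1 ∨ s = -1) : s * s = 1 := by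
  rcases hs with rfl | rfl <;> simp

/-- An element commuting with the four generators up to sign is a scalar multiple of a normal form. -/
theorem IsQuad.exists_word {g : GLm ι F}
    (h : ∀ x ∈ ({x₁, x₂, y₁, y₂} : Set (GLm ι F)), CommSign 1 g x ∨ CommSign (-1) g x) :
    ∃ (c : Fˣ) (w : Fin 4 × (Fin 2 × Fin 2) × (Fin 2 × Fin 2)),
      g = sc c * word i x₁ x₂ y₁ y₂ w := by
  have := hq.nonempty
  have hneg : ((-1 : Fˣ) * -1) = 1 := by simp
  -- kill the four signs in turn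
  have kill : ∀ (u x : GLm ι F) (g : GLm ι F), CommSign (-1) u x →
      (CommSign 1 g x ∨ CommSign (-1) g x) →
      ∃ a : Fin 2, CommSign 1 (u ^ (a : ℕ) * g) x := by
    intro u x g hu hg
    rcases hg with hg | hg
    · exact ⟨0, by simpa using hg⟩
    · exact ⟨1, by simpa [hneg] using hu.mul_left hg⟩
  have keep : ∀ (u x g : GLm ι F) (a : Fin 2), CommSign 1 u x →
      (CommSign 1 g x ∨ CommSign (-1) g x) →
      (CommSign 1 (u ^ (a : ℕ) * g) x ∨ CommSign (-1) (u ^ (a : ℕ) * g) x) := by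
    intro u x g a hu hg
    fin_cases a
    · simpa using hg
    · rcases hg with hg | hg
      · exact Or.inl (by simpa using hu.mul_left hg)
      · exact Or.inr (by simpa using hu.mul_left hg)
  have keep1 : ∀ (u x g : GLm ι F) (a : Fin 2), CommSign 1 u x → CommSign 1 g x →
      CommSign 1 (u ^ (a : ℕ) * g) x := by
    intro u x g a hu hg
    fin_cases a
    · simpa using hg
    · simpa using hu.mul_left hg
  obtain ⟨a, ha⟩ := kill x₁ y₁ g hq.x₁y₁ (h _ (by simp))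
  set g1 := x₁ ^ (a : ℕ) * g with hg1
  obtain ⟨b, hb⟩ := kill x₂ y₂ g1 hq.x₂y₂ (keep x₁ y₂ g a hq.x₁y₂ (h _ (by simp)))
  set g2 := x₂ ^ (b : ℕ) * g1 with hg2
  have h2y1 : CommSign 1 g2 y₁ := keep1 x₂ y₁ g1 b hq.x₂y₁ ha
  have h2x1 : CommSign 1 g2 x₁ ∨ CommSign (-1) g2 x₁ :=
    keep x₂ x₁ g1 b (hq.xx.symm (by simp)) (keep x₁ x₁ g a (commSign_self x₁) (h _ (by simp)))
  have h2x2 : CommSign 1 g2 x₂ ∨ CommSign (-1) g2 x₂ :=
    keep x₂ x₂ g1 b (commSign_self x₂) (keep x₁ x₂ g a hq.xx (h _ (by simp)))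
  obtain ⟨c, hc⟩ := kill y₁ x₁ g2 (hq.x₁y₁.symm hneg) h2x1
  set g3 := y₁ ^ (c : ℕ) * g2 with hg3
  have h3y1 : CommSign 1 g3 y₁ := keep1 y₁ y₁ g2 c (commSign_self y₁) h2y1
  have h3y2 : CommSign 1 g3 y₂ := keep1 y₁ y₂ g2 c hq.yy hb
  obtain ⟨d, hd⟩ := kill y₂ x₂ g3 (hq.x₂y₂.symm hneg)
    (keep y₁ x₂ g2 c (hq.x₂y₁.symm (by simp)) h2x2)
  set g4 := y₂ ^ (d : ℕ) * g3 with hg4
  have hcm : ∀ x, CommSign 1 g4 x → g4.val * x.val = x.val * g4.val := fun x hx => by
    rw [← Units.val_mul, commSign_one.1 hx, Units.val_mul]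
  obtain ⟨r, hr⟩ := hq.scalar_of_commute
    (hcm _ (keep1 y₂ x₁ g3 d (hq.x₁y₂.symm (by simp)) hc)) (hcm _ hd)
    (hcm _ (keep1 y₂ y₁ g3 d (hq.yy.symm (by simp)) h3y1))
    (hcm _ (keep1 y₂ y₂ g3 d (commSign_self y₂) h3y2))
  have hr0 : r ≠ 0 := fun h0 => g4.ne_zero (by rw [hr, h0, zero_smul])
  have hg4' : g4 = sc (Units.mk0 r hr0) := Units.ext (by rw [hr, sc_val]; rfl)
  refine ⟨Units.mk0 r hr0, (0, (a, b), (c, d)), ?_⟩
  rw [← hg4', hg4, hg3, hg2, hg1]
  have inv_pow : ∀ (u : GLm ι F) (k : Fin 2), u * u = 1 → u ^ (k : ℕ) * u ^ (k : ℕ) = 1 := by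
    intro u k hu
    fin_cases k <;> simp [hu]
  have p1 := inv_pow x₁ a hq.x₁_sq
  have p2 := inv_pow x₂ b hq.x₂_sq
  have p3 := inv_pow y₁ c hq.y₁_sq
  have p4 := inv_pow y₂ d hq.y₂_sq
  conv_lhs => rw [show g = x₁ ^ (a : ℕ) * x₂ ^ (b : ℕ) * (y₁ ^ (c : ℕ) * y₂ ^ (d : ℕ)) *
    (y₂ ^ (d : ℕ) * (y₁ ^ (c : ℕ) * (x₂ ^ (b : ℕ) * (x₁ ^ (a : ℕ) * g)))) by
      simp only [mul_assoc]
      rw [← mul_assoc (y₂ ^ (d : ℕ)), p4, one_mul, ← mul_assoc (y₁ ^ (c : ℕ)), p3, one_mul,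
        ← mul_assoc (x₂ ^ (b : ℕ)), p2, one_mul, ← mul_assoc (x₁ ^ (a : ℕ)), p1, one_mul]]
  have hscal : y₂ ^ (d : ℕ) * (y₁ ^ (c : ℕ) * (x₂ ^ (b : ℕ) * (x₁ ^ (a : ℕ) * g))) =
      sc (Units.mk0 r hr0) := hg4'
  rw [hscal, ← sc_comm]
  simp [word]

/-- Every element of the group commutes up to sign with any element that does so with the
generators. -/
theorem IsQuad.commSign_of_mem {g z : GLm ι F} (hz : z ∈ grp i x₁ x₂ y₁ y₂)
    (h : ∀ x ∈ ({x₁, x₂, y₁, y₂} : Set (GLm ι F)), CommSign 1 x g ∨ CommSign (-1) x g) :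
    CommSign 1 z g ∨ CommSign (-1) z g := by
  induction hz using Subgroup.closure_induction with
  | mem x hx =>
    rcases hx with rfl | hx
    · exact Or.inl (commSign_sc _ _)
    · exact h x hx
  | one => exact Or.inl (one_commSign g)
  | mul a b _ _ ha hb =>
    rcases ha with ha | ha <;> rcases hb with hb | hb
    · exact Or.inl (by simpa using ha.mul_left hb)
    · exact Or.inr (by simpa using ha.mul_left hb)
    · exact Or.inr (by simpa using ha.mul_left hb)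
    · exact Or.inl (by simpa using ha.mul_left hb)
  | inv a _ ha =>
    have key : ∀ s : Fˣ, s * s = 1 → CommSign s a g → CommSign s a⁻¹ g := by
      intro s hs h1
      have h1' := h1.symm hs
      unfold CommSign at h1' ⊢
      calc a⁻¹ * g = a⁻¹ * (g * a) * a⁻¹ := by group
        _ = sc s * (g * a⁻¹) := by rw [h1', ← mul_assoc a⁻¹, ← sc_comm]; group
    rcases ha with ha | ha
    · exact Or.inl (key 1 (by simp) ha)
    · exact Or.inr (key _ (by simp) ha)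

theorem IsQuad.commSign_gen (g : GLm ι F) (hg : g ∈ grp i x₁ x₂ y₁ y₂) :
    ∀ x ∈ ({x₁, x₂, y₁, y₂} : Set (GLm ι F)), CommSign 1 g x ∨ CommSign (-1) g x := by
  have hneg : ((-1 : Fˣ) * -1) = 1 := by simp
  intro x hx
  refine hq.commSign_of_mem hg fun u hu => ?_
  rcases hu with rfl | rfl | rfl | rfl <;> rcases hx with rfl | rfl | rfl | rfl
  · exact Or.inl (commSign_self _)
  · exact Or.inl hq.xx
  · exact Or.inr hq.x₁y₁
  · exact Or.inl hq.x₁y₂
  · exact Or.inl (hq.xx.symm (by simp))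
  · exact Or.inl (commSign_self _)
  · exact Or.inl hq.x₂y₁
  · exact Or.inr hq.x₂y₂
  · exact Or.inr (hq.x₁y₁.symm hneg)
  · exact Or.inl (hq.x₂y₁.symm (by simp))
  · exact Or.inl (commSign_self _)
  · exact Or.inl hq.yy
  · exact Or.inl (hq.x₁y₂.symm (by simp))
  · exact Or.inr (hq.x₂y₂.symm hneg)
  · exact Or.inl (hq.yy.symm (by simp))
  · exact Or.inl (commSign_self _)

theorem IsQuad.commSign_mem {g z : GLm ι F} (hg : g ∈ grp i x₁ x₂ y₁ y₂)
    (hz : z ∈ grp i x₁ x₂ y₁ y₂) : CommSign 1 g z ∨ CommSign (-1) g z :=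
  hq.commSign_of_mem hg fun x hx => by
    rcases hq.commSign_gen z hz x hx with h | h
    · exact Or.inl (h.symm (by simp))
    · exact Or.inr (h.symm (by simp))

theorem IsQuad.pow_four {g : GLm ι F} (hg : g ∈ grp i x₁ x₂ y₁ y₂) : g ^ 4 = 1 := by
  induction hg using Subgroup.closure_induction with
  | mem x hx =>
    rcases hx with rfl | rfl | rfl | rfl | rfl
    · rw [← sc_pow, hq.i_pow_four, sc_one]
    all_goals rw [show (4 : ℕ) = 2 * 2 from rfl, pow_mul, sq x]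
    · rw [hq.x₁_sq, one_pow]
    · rw [hq.x₂_sq, one_pow]
    · rw [hq.y₁_sq, one_pow]
    · rw [hq.y₂_sq, one_pow]
  | one => simp
  | inv a _ ha => rw [inv_pow, ha, inv_one]
  | mul a b ha' hb' ha hb =>
    rcases hq.commSign_mem hb' ha' with h | h
    · rw [(show Commute a b from (commSign_one.1 h).symm).mul_pow, ha, hb, one_mul]
    · have h2 : (a * b) ^ 2 = sc (-1) * (a ^ 2 * b ^ 2) := by
        rw [sq, sq, sq, mul_assoc a b, ← mul_assoc b a, h]
        simp only [← mul_assoc]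
        rw [← sc_comm]
      have hc : Commute (a ^ 2) (b ^ 2) := by
        have hb2 : a * b ^ 2 = b ^ 2 * a := by
          have h' : CommSign (-1) a b := h.symm (by simp)
          rw [sq, ← mul_assoc, h', mul_assoc, mul_assoc b a b, h', ← mul_assoc b (sc _),
            ← sc_comm, mul_assoc, ← mul_assoc (sc (-1)) (sc (-1)), ← sc_mul]
          simp [sc_one, mul_assoc]
        exact Commute.pow_left hb2 2
      rw [show (4 : ℕ) = 2 * 2 from rfl, pow_mul, h2, (show Commute (sc (-1)) (a ^ 2 * b ^ 2) from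
        sc_comm _ _).mul_pow, hc.mul_pow, ← sc_pow, ← pow_mul, ← pow_mul]
      simp [sc_one, ha, hb]

theorem IsQuad.commSign_word (w : Fin 4 × (Fin 2 × Fin 2) × (Fin 2 × Fin 2)) :
    CommSign ((-1) ^ (w.2.1.1 : ℕ)) (word i x₁ x₂ y₁ y₂ w) y₁ ∧
    CommSign ((-1) ^ (w.2.1.2 : ℕ)) (word i x₁ x₂ y₁ y₂ w) y₂ ∧
    CommSign ((-1) ^ (w.2.2.1 : ℕ)) (word i x₁ x₂ y₁ y₂ w) x₁ ∧
    CommSign ((-1) ^ (w.2.2.2 : ℕ)) (word i x₁ x₂ y₁ y₂ w) x₂ := by
  have hneg : ((-1 : Fˣ) * -1) = 1 := by simp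
  have hp : ∀ (s : Fˣ) (u x : GLm ι F) (a : Fin 2), CommSign s u x →
      CommSign (s ^ (a : ℕ)) (u ^ (a : ℕ)) x := by
    intro s u x a h
    fin_cases a
    · simpa using one_commSign x
    · simpa using h
  have hw : ∀ (x : GLm ι F) (s t u v : Fˣ), CommSign s x₁ x → CommSign t x₂ x → CommSign u y₁ x →
      CommSign v y₂ x → CommSign (s ^ (w.2.1.1 : ℕ) * t ^ (w.2.1.2 : ℕ) *
        (u ^ (w.2.2.1 : ℕ) * v ^ (w.2.2.2 : ℕ))) (word i x₁ x₂ y₁ y₂ w) x := by
    intro x s t u v hs ht hu hv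
    have hsc : CommSign 1 (sc i ^ (w.1 : ℕ)) x := by rw [← sc_pow]; exact commSign_sc _ _
    have h := hsc.mul_left (((hp _ _ _ w.2.1.1 hs).mul_left (hp _ _ _ w.2.1.2 ht)).mul_left
      ((hp _ _ _ w.2.2.1 hu).mul_left (hp _ _ _ w.2.2.2 hv)))
    rwa [one_mul] at h
  refine ⟨?_, ?_, ?_, ?_⟩
  · simpa using hw y₁ _ _ _ _ hq.x₁y₁ hq.x₂y₁ (commSign_self _) (hq.yy.symm (by simp))
  · simpa using hw y₂ _ _ _ _ hq.x₁y₂ hq.x₂y₂ hq.yy (commSign_self _)
  · simpa using hw x₁ _ _ _ _ (commSign_self _) (hq.xx.symm (by simp)) (hq.x₁y₁.symm hneg)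
      (hq.x₁y₂.symm (by simp))
  · simpa using hw x₂ _ _ _ _ hq.xx (commSign_self _) (hq.x₂y₁.symm (by simp)) (hq.x₂y₂.symm hneg)

theorem IsQuad.word_injective : Function.Injective (word i x₁ x₂ y₁ y₂) := by
  have := hq.nonempty
  rintro ⟨k, ⟨a, b⟩, ⟨c, d⟩⟩ ⟨k', ⟨a', b'⟩, ⟨c', d'⟩⟩ he
  obtain ⟨h1, h2, h3, h4⟩ := hq.commSign_word (k, (a, b), (c, d))
  obtain ⟨h1', h2', h3', h4'⟩ := hq.commSign_word (k', (a', b'), (c', d'))
  rw [he] at h1 h2 h3 h4
  have hfin : ∀ a a' : Fin 2, ((-1 : Fˣ)) ^ (a : ℕ) = (-1) ^ (a' : ℕ) → a = a' := by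
    intro a a' h
    fin_cases a <;> fin_cases a' <;> simp_all [hq.neg_one_ne_one, hq.neg_one_ne_one.symm]
  obtain rfl := hfin a a' (h1.unique h1')
  obtain rfl := hfin b b' (h2.unique h2')
  obtain rfl := hfin c c' (h3.unique h3')
  obtain rfl := hfin d d' (h4.unique h4')
  have hk : i ^ (k : ℕ) = i ^ (k' : ℕ) := by
    apply sc_injective (ι := ι)
    have h := mul_right_cancel he
    rwa [sc_pow, sc_pow]
  have hord : orderOf i = 4 := by
    have h2 : ¬ i ^ (2 ^ 1) = 1 := by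
      rw [pow_one, sq, hq.sq_i]; exact hq.neg_one_ne_one
    have h4 := hq.i_pow_four
    simpa using orderOf_eq_prime_pow (p := 2) h2 (by simpa using h4)
  rw [pow_eq_pow_iff_modEq, hord, Nat.ModEq, Nat.mod_eq_of_lt k.isLt, Nat.mod_eq_of_lt k'.isLt] at hk
  rw [Fin.ext hk]

theorem IsQuad.det_eq_one {g : GLm ι F} (hg : g ∈ grp i x₁ x₂ y₁ y₂) : g.val.det = 1 := by
  have hinv : ∀ {x y : GLm ι F}, x * x = 1 → CommSign (-1) x y → x.val.det = 1 := by
    intro x y hx h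
    have := det_eq_sq_of_anticommute hq.card hq.two (s := 1) (by rw [one_smul, ← Units.val_mul, hx,
      Units.val_one]) y (by rw [← Units.val_mul, h]; simp)
    rwa [one_pow] at this
  have hneg : ((-1 : Fˣ) * -1) = 1 := by simp
  induction hg using Subgroup.closure_induction with
  | mem x hx =>
    rcases hx with rfl | rfl | rfl | rfl | rfl
    · have h4 : (i : F) ^ 4 = 1 := by
        rw [← Units.val_pow_eq_pow_val, hq.i_pow_four, Units.val_one]
      rw [sc_val, det_smul, det_one, mul_one, hq.card, h4]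
    · exact hinv hq.x₁_sq hq.x₁y₁
    · exact hinv hq.x₂_sq hq.x₂y₂
    · exact hinv hq.y₁_sq (hq.x₁y₁.symm hneg)
    · exact hinv hq.y₂_sq (hq.x₂y₂.symm hneg)
  | one => simp
  | mul a b _ _ ha hb => rw [Units.val_mul, det_mul, ha, hb, mul_one]
  | inv a _ ha =>
    have h : a.val.det * (a⁻¹ : GLm ι F).val.det = 1 := by
      rw [← det_mul, ← Units.val_mul, mul_inv_cancel, Units.val_one, det_one]
    rwa [ha, one_mul] at h

end Quad

end CfsgLib.AschLinear.Pauli
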