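import Mathlib
import Cfsg.Agent.Eq.Def_GeometricClasses
import Cfsg.Agent.AschLinear.Pauli
import Cfsg.Agent.Aschbacher.Basic

/-!
The symplectic-type group of order sixty-four in dimension four: order, centre, absolute
irreducibility, the class-six data, and the normaliser.
-/

set_option autoImplicit false
set_option linter.unusedSectionVars false

namespace CfsgLib.AschLinear.Pauli

open Matrix Module

variable {ι : Type} [Fintype ι] [DecidableEq ι] {F : Type*} [Field F]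

local notation "GLm" => Matrix.GeneralLinearGroup

variable {i : Fˣ} {x₁ x₂ y₁ y₂ : GLm ι F} (hq : IsQuad i x₁ x₂ y₁ y₂)

include hq

theorem IsQuad.exists_pow_i {c : Fˣ} (hc : c ^ 4 = 1) : ∃ k : Fin 4, c = i ^ (k : ℕ) := by
  have h : (c : F) ^ 2 * (c : F) ^ 2 = 1 * 1 := by
    rw [← pow_add, mul_one, ← Units.val_pow_eq_pow_val]; norm_num [hc]
  have hi : (i : F) * i = -1 := by simpa using congrArg Units.val hq.sq_i
  rcases mul_self_eq_mul_self_iff.1 h with h1 | h1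
  · rcases sq_eq_one_iff.1 h1 with h2 | h2
    · exact ⟨0, Units.ext (by simpa using h2)⟩
    · exact ⟨2, Units.ext (by simpa [sq, hi] using h2)⟩
  · have h3 : (c : F) * c = (i : F) * i := by rw [hi, ← sq, h1]
    rcases mul_self_eq_mul_self_iff.1 h3 with h2 | h2
    · exact ⟨1, Units.ext (by simpa using h2)⟩
    · exact ⟨3, Units.ext (by rw [h2, Units.val_pow_eq_pow_val]; simp [pow_succ, hi])⟩

theorem IsQuad.mem_grp_iff {g : GLm ι F} : g ∈ grp i x₁ x₂ y₁ y₂ ↔
    g ^ 4 = 1 ∧ ∀ x ∈ ({x₁, x₂, y₁, y₂} : Set (GLm ι F)), CommSign 1 g x ∨ CommSign (-1) g x := by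
  have := hq.nonempty
  refine ⟨fun h => ⟨hq.pow_four h, hq.commSign_gen g h⟩, fun ⟨h4, h⟩ => ?_⟩
  obtain ⟨c, w, rfl⟩ := hq.exists_word h
  rw [(show Commute (sc c) (word i x₁ x₂ y₁ y₂ w) from sc_comm c _).mul_pow,
    hq.pow_four (hq.word_mem w), mul_one, ← sc_pow, ← sc_one (ι := ι) (F := F)] at h4
  obtain ⟨k, rfl⟩ := hq.exists_pow_i (sc_injective h4)
  exact mul_mem (by rw [sc_pow]; exact pow_mem hq.sc_i_mem _) (hq.word_mem w)

theorem IsQuad.exists_eq_word {g : GLm ι F} (hg : g ∈ grp i x₁ x₂ y₁ y₂) :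
    ∃ w, g = word i x₁ x₂ y₁ y₂ w := by
  have := hq.nonempty
  obtain ⟨h4, h⟩ := hq.mem_grp_iff.1 hg
  obtain ⟨c, ⟨j, ab, cd⟩, rfl⟩ := hq.exists_word h
  rw [(show Commute (sc c) (word i x₁ x₂ y₁ y₂ (j, ab, cd)) from sc_comm c _).mul_pow,
    hq.pow_four (hq.word_mem _), mul_one, ← sc_pow, ← sc_one (ι := ι) (F := F)] at h4
  obtain ⟨k, rfl⟩ := hq.exists_pow_i (sc_injective h4)
  refine ⟨(k + j, ab, cd), ?_⟩
  simp only [word, ← mul_assoc, sc_pow, ← pow_add]
  congr 4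
  exact pow_eq_pow_mod _ (by rw [← sc_pow, hq.i_pow_four, sc_one])

theorem IsQuad.card_grp : Nat.card (grp i x₁ x₂ y₁ y₂) = 64 := by
  let f : Fin 4 × (Fin 2 × Fin 2) × (Fin 2 × Fin 2) → grp i x₁ x₂ y₁ y₂ :=
    fun w => ⟨_, hq.word_mem w⟩
  have hf : Function.Bijective f :=
    ⟨fun a b h => hq.word_injective (congrArg Subtype.val h), fun g => by
      obtain ⟨w, hw⟩ := hq.exists_eq_word g.2
      exact ⟨w, Subtype.ext hw.symm⟩⟩
  rw [← Nat.card_congr (Equiv.ofBijective f hf)]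
  simp

theorem IsQuad.center_eq : Subgroup.center (grp i x₁ x₂ y₁ y₂) =
    (Subgroup.zpowers (sc i)).subgroupOf (grp i x₁ x₂ y₁ y₂) := by
  have := hq.nonempty
  ext ⟨z, hz⟩
  simp only [Subgroup.mem_center_iff, Subgroup.mem_subgroupOf]
  refine ⟨fun h => ?_, fun h g => ?_⟩
  · have hc : ∀ x ∈ grp i x₁ x₂ y₁ y₂, z.val * x.val = x.val * z.val := fun x hx => by
      rw [← Units.val_mul, ← Units.val_mul]
      exact congrArg (fun g : grp i x₁ x₂ y₁ y₂ => (g : GLm ι F).val) (h ⟨x, hx⟩).symm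
    obtain ⟨c, hc⟩ := hq.scalar_of_commute (hc _ hq.x₁_mem) (hc _ hq.x₂_mem) (hc _ hq.y₁_mem)
      (hc _ hq.y₂_mem)
    have hc0 : c ≠ 0 := fun h0 => z.ne_zero (by rw [hc, h0, zero_smul])
    have hzc : z = sc (Units.mk0 c hc0) := Units.ext (by rw [hc, sc_val]; rfl)
    subst hzc
    have h4 := hq.pow_four hz
    rw [← sc_pow, ← sc_one (ι := ι) (F := F)] at h4
    obtain ⟨k, hk⟩ := hq.exists_pow_i (sc_injective h4)
    rw [hk, sc_pow]
    exact Subgroup.npow_mem_zpowers _ _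
  · obtain ⟨k, hk⟩ := h
    apply Subtype.ext
    show (g : GLm ι F) * z = z * (g : GLm ι F)
    rw [← hk]
    exact ((show Commute (sc i) (g : GLm ι F) from sc_comm _ _).zpow_left k).eq.symm

theorem IsQuad.orderOf_sc : orderOf (sc i : GLm ι F) = 4 := by
  have := hq.nonempty
  have h2 : ¬ (sc i : GLm ι F) ^ (2 ^ 1) = 1 := by
    rw [pow_one, ← sc_pow, ← sc_one, sq, hq.sq_i]
    exact fun h => hq.neg_one_ne_one (sc_injective h)
  simpa using orderOf_eq_prime_pow (p := 2) h2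
    (by rw [show (2 : ℕ) ^ (1 + 1) = 4 from rfl, ← sc_pow, hq.i_pow_four, sc_one])

theorem IsQuad.card_center : Nat.card (Subgroup.center (grp i x₁ x₂ y₁ y₂)) = 4 := by
  rw [hq.center_eq, Nat.card_congr
    (Subgroup.subgroupOfEquivOfLe (Subgroup.zpowers_le.2 hq.sc_i_mem)).toEquiv, Nat.card_zpowers,
    hq.orderOf_sc]

theorem IsQuad.exponent_eq : Monoid.exponent (grp i x₁ x₂ y₁ y₂) = 4 := by
  refine Nat.dvd_antisymm (Monoid.exponent_dvd_of_forall_pow_eq_one fun g =>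
    Subtype.ext (hq.pow_four g.2)) ?_
  have h : orderOf (⟨sc i, hq.sc_i_mem⟩ : grp i x₁ x₂ y₁ y₂) = 4 := by
    rw [Subgroup.orderOf_mk, hq.orderOf_sc]
  exact h ▸ Monoid.order_dvd_exponent _

/-- Absolute irreducibility of the group. -/
theorem IsQuad.absIrred :
    Cfsg.Geo.ActsAbsolutelyIrreducibly (Cfsg.Geo.matrixSet (grp i x₁ x₂ y₁ y₂)) := by
  refine ⟨fun W hW => ?_, fun M hM => hq.scalar_of_commute (hM _ ⟨_, hq.x₁_mem, rfl⟩)
    (hM _ ⟨_, hq.x₂_mem, rfl⟩) (hM _ ⟨_, hq.y₁_mem, rfl⟩) (hM _ ⟨_, hq.y₂_mem, rfl⟩)⟩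
  by_contra hcon
  push Not at hcon
  have hinv : ∀ g ∈ grp i x₁ x₂ y₁ y₂, ∀ v ∈ W, g.val *ᵥ v ∈ W := fun g hg v hv =>
    hW _ ⟨g, hg, rfl⟩ ⟨v, hv, Matrix.toLin'_apply _ _⟩
  obtain ⟨b, e1, e2, e3, e4⟩ := hq.exists_basis
  obtain ⟨v, hv, hv0⟩ := (Submodule.ne_bot_iff W).1 hcon.1
  obtain ⟨k, hk⟩ : ∃ k, b.repr v k ≠ 0 := by
    by_contra! hall
    exact hv0 (b.repr.map_eq_zero_iff.1 (Finsupp.ext hall))
  -- project onto the line of `b k`
  have hproj : v + (-1 : F) ^ (k.1 : ℕ) • x₁.val *ᵥ v + (-1 : F) ^ (k.2 : ℕ) •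
      x₂.val *ᵥ (v + (-1 : F) ^ (k.1 : ℕ) • x₁.val *ᵥ v) = (4 * b.repr v k) • b k := by
    have hrepr : v = ∑ l, b.repr v l • b l := (b.sum_repr v).symm
    conv_lhs => rw [hrepr]
    simp only [mulVec_add, mulVec_smul, mulVec_sum, e1, e2, Finset.smul_sum,
      ← Finset.sum_add_distrib, smul_smul, ← add_smul]
    rw [Finset.sum_eq_single k]
    · congr 1
      obtain ⟨k₁, k₂⟩ := k
      fin_cases k₁ <;> fin_cases k₂ <;> simp <;> ring
    · rintro ⟨l₁, l₂⟩ - hl
      refine smul_eq_zero_of_left ?_ _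
      obtain ⟨k₁, k₂⟩ := k
      fin_cases k₁ <;> fin_cases k₂ <;> fin_cases l₁ <;> fin_cases l₂ <;>
        first | exact absurd rfl hl | (simp <;> ring)
    · simp
  have hbk : b k ∈ W := by
    have h4 : (4 : F) * b.repr v k ≠ 0 := by
      rw [show (4 : F) = 2 * 2 by norm_num]
      exact mul_ne_zero (mul_ne_zero hq.two hq.two) hk
    have hw : v + (-1 : F) ^ (k.1 : ℕ) • x₁.val *ᵥ v ∈ W :=
      add_mem hv (W.smul_mem _ (hinv _ hq.x₁_mem _ hv))
    have := add_mem hw (W.smul_mem ((-1 : F) ^ (k.2 : ℕ)) (hinv _ hq.x₂_mem _ hw))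
    rw [hproj] at this
    exact (W.smul_mem_iff h4).1 this
  have hall : ∀ l, b l ∈ W := by
    have hy1 : ∀ l, b l ∈ W → b (l.1 + 1, l.2) ∈ W := fun l hl =>
      e3 l ▸ hinv _ hq.y₁_mem _ hl
    have hy2 : ∀ l, b l ∈ W → b (l.1, l.2 + 1) ∈ W := fun l hl =>
      e4 l ▸ hinv _ hq.y₂_mem _ hl
    rintro ⟨l₁, l₂⟩
    obtain ⟨k₁, k₂⟩ := k
    have h1 : b (l₁, k₂) ∈ W := by
      fin_cases l₁ <;> fin_cases k₁ <;> first | exact hbk | exact hy1 _ hbk
    fin_cases l₂ <;> fin_cases k₂ <;> first | exact h1 | exact hy2 _ h1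
  exact hcon.2 (eq_top_iff.2 (b.span_eq.ge.trans (Submodule.span_le.2
    (Set.range_subset_iff.2 hall))))

theorem IsQuad.cyclic_of_characteristic (A : Subgroup (grp i x₁ x₂ y₁ y₂)) (hA : A.Characteristic)
    (hcomm : IsMulCommutative A) : IsCyclic A := by
  classical
  have := hq.nonempty
  have hZ : A ≤ Subgroup.center (grp i x₁ x₂ y₁ y₂) := by
    rintro ⟨a, ha⟩ haA
    by_contra hnc
    obtain ⟨u, hu, hau⟩ : ∃ u ∈ ({x₁, x₂, y₁, y₂} : Set (GLm ι F)), CommSign (-1) a u := by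
      by_contra! hall
      have hc : ∀ u ∈ ({x₁, x₂, y₁, y₂} : Set (GLm ι F)), a.val * u.val = u.val * a.val := by
        intro u hu
        have h := commSign_one.1 ((hq.commSign_gen a ha u hu).resolve_right (hall u hu))
        rw [← Units.val_mul, h, Units.val_mul]
      obtain ⟨c, hc⟩ := hq.scalar_of_commute (hc _ (by simp)) (hc _ (by simp)) (hc _ (by simp))
        (hc _ (by simp))
      refine hnc (Subgroup.mem_center_iff.2 fun g => Subtype.ext (Units.ext ?_))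
      show (g : GLm ι F).val * a.val = a.val * (g : GLm ι F).val
      rw [hc]; simp
    have huR : u ∈ grp i x₁ x₂ y₁ y₂ := by
      rcases hu with rfl | rfl | rfl | rfl
      exacts [hq.x₁_mem, hq.x₂_mem, hq.y₁_mem, hq.y₂_mem]
    have hu2 : u * u = 1 := by
      rcases hu with rfl | rfl | rfl | rfl
      exacts [hq.x₁_sq, hq.x₂_sq, hq.y₁_sq, hq.y₂_sq]
    have hu2' : u.val * u.val = 1 := by rw [← Units.val_mul, hu2, Units.val_one]
    have hi : (i : F) * i = -1 := by simpa using congrArg Units.val hq.sq_i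
    have hT1 : (1 + (i : F) • u.val) * ((2 : F)⁻¹ • (1 - (i : F) • u.val)) = 1 := by
      simp only [Matrix.mul_smul, mul_sub, add_mul, one_mul, mul_one, Matrix.smul_mul, smul_smul,
        hu2', hi, smul_add]
      have h2 := mul_inv_cancel₀ hq.two
      linear_combination (norm := module) h2 • (1 : Matrix ι ι F)
    let T : GLm ι F := ⟨1 + (i : F) • u.val, (2 : F)⁻¹ • (1 - (i : F) • u.val), hT1,
      mul_eq_one_comm.1 hT1⟩
    have hTc : ∀ g : GLm ι F, CommSign 1 g u → T * g * T⁻¹ = g := by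
      intro g hg
      have hg' : g.val * u.val = u.val * g.val := by
        rw [← Units.val_mul, commSign_one.1 hg, Units.val_mul]
      have hTg : T * g = g * T := Units.ext (by
        simp [T, add_mul, mul_add, hg'])
      rw [hTg, mul_inv_cancel_right]
    have hTa : ∀ g : GLm ι F, CommSign (-1) g u → T * g * T⁻¹ = sc (-i) * (g * u) := by
      intro g hg
      have hg' : u.val * g.val = -(g.val * u.val) := by
        rw [← Units.val_mul g u, hg]; simp
      refine mul_inv_eq_iff_eq_mul.2 (Units.ext ?_)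
      simp [T, add_mul, mul_add, hg', mul_assoc, hu2', smul_smul, hi]
      abel
    have hmap : ∀ g ∈ grp i x₁ x₂ y₁ y₂, T * g * T⁻¹ ∈ grp i x₁ x₂ y₁ y₂ := by
      intro g hg
      rcases hq.commSign_mem hg huR with h | h
      · rw [hTc g h]; exact hg
      · rw [hTa g h]
        refine mul_mem ?_ (mul_mem hg huR)
        rw [show -i = i ^ 3 by rw [pow_succ', sq, hq.sq_i, mul_neg_one], sc_pow]
        exact pow_mem hq.sc_i_mem _
    let f : grp i x₁ x₂ y₁ y₂ →* grp i x₁ x₂ y₁ y₂ :=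
      { toFun := fun g => ⟨T * g * T⁻¹, hmap g g.2⟩
        map_one' := by ext1; simp
        map_mul' := fun g h => by ext1; simp [mul_assoc] }
    have hfinj : Function.Injective f := fun g h hgh => Subtype.ext (by
      have := congrArg Subtype.val hgh
      simpa [f] using this)
    have : Finite (grp i x₁ x₂ y₁ y₂) := Nat.finite_of_card_ne_zero (by rw [hq.card_grp]; norm_num)
    let φ : grp i x₁ x₂ y₁ y₂ ≃* grp i x₁ x₂ y₁ y₂ :=
      MulEquiv.ofBijective f (Finite.injective_iff_bijective.1 hfinj)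
    have hφ : φ ⟨a, ha⟩ ∈ A := by
      have h := Subgroup.characteristic_iff_comap_eq.1 hA φ
      exact Subgroup.mem_comap.1 (h.symm ▸ haA)
    have hc := congrArg (fun x : A => ((x : grp i x₁ x₂ y₁ y₂) : GLm ι F).val)
      (hcomm.is_comm.comm ⟨⟨a, ha⟩, haA⟩ ⟨φ ⟨a, ha⟩, hφ⟩)
    have he : ((φ ⟨a, ha⟩ : grp i x₁ x₂ y₁ y₂) : GLm ι F) = sc (-i) * (a * u) := hTa a hau
    simp only [Subgroup.coe_mul, he, Units.val_mul, sc_val, Units.val_neg, Matrix.smul_mul,
      one_mul, Matrix.mul_smul] at hc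
    have hau' : u.val * a.val = -(a.val * u.val) := by
      rw [← Units.val_mul a u, hau]; simp
    rw [mul_assoc a.val u.val a.val, hau', mul_neg, ← mul_assoc] at hc
    have h1 := (IsUnit.smul_left_cancel (Ne.isUnit (neg_ne_zero.2 i.ne_zero))).1 hc
    have h2 : (2 : F) • (a * a * u).val = 0 := by
      rw [two_smul, Units.val_mul, Units.val_mul]
      nth_rewrite 1 [h1]
      exact neg_add_cancel _
    exact (a * a * u).ne_zero ((smul_eq_zero.1 h2).resolve_left hq.two)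
  have hcyc : IsCyclic (Subgroup.center (grp i x₁ x₂ y₁ y₂)) := by
    rw [hq.center_eq]
    exact isCyclic_of_surjective
      (Subgroup.subgroupOfEquivOfLe (Subgroup.zpowers_le.2 hq.sc_i_mem)).symm
      (MulEquiv.surjective _)
  exact isCyclic_of_injective (Subgroup.inclusion hZ) (Subgroup.inclusion_injective hZ)

theorem IsQuad.isSymplecticTypeData [Fintype F] {p : ℕ} (hp : p.Prime)
    (hcard : Fintype.card F = p) : p % 4 = 1 ∧
      Cfsg.Geo.IsLinearSymplecticTypeData 2 (grp i x₁ x₂ y₁ y₂) := by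
  classical
  have := hq.nonempty
  have hord : orderOf i = 4 := by
    have h : orderOf (sc i : GLm ι F) = orderOf i :=
      orderOf_injective (Units.map (Matrix.scalar ι : F →+* Matrix ι ι F).toMonoidHom) sc_injective i
    rw [← h, hq.orderOf_sc]
  have hdvd : 4 ∣ p - 1 := by
    rw [← hord, ← hcard, ← Fintype.card_units]
    exact orderOf_dvd_card
  have hp4 : p % 4 = 1 := by
    have := hp.two_le; omega
  haveI : Fact p.Prime := ⟨hp⟩
  have hchar : CharP F p := charP_of_card_eq_prime hcard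
  refine ⟨hp4, ⟨Nat.prime_two, ?_, hq.cyclic_of_characteristic, ?_⟩, hq.absIrred, p, 1, by omega,
    ⟨hp, hchar, by rw [hcard, pow_one], by rw [hq.card_center, pow_one]; exact hdvd,
      fun d h1 h2 => by omega⟩,
    Or.inr (Or.inl ⟨rfl, rfl, hq.card_center, hq.card.ge, 2, by rw [hq.card_grp]; norm_num⟩)⟩
  · exact IsPGroup.of_card (n := 6) (by rw [hq.card_grp]; norm_num)
  · rw [hq.exponent_eq]; rfl

/-- A group conjugating the generators to elements commuting with them up to sign normalises the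
group. -/
theorem IsQuad.conj_mem {h : GLm ι F}
    (hh : ∀ u ∈ ({x₁, x₂, y₁, y₂} : Set (GLm ι F)), ∀ x ∈ ({x₁, x₂, y₁, y₂} : Set (GLm ι F)),
      CommSign 1 (h * u * h⁻¹) x ∨ CommSign (-1) (h * u * h⁻¹) x)
    {g : GLm ι F} (hg : g ∈ grp i x₁ x₂ y₁ y₂) : h * g * h⁻¹ ∈ grp i x₁ x₂ y₁ y₂ := by
  induction hg using Subgroup.closure_induction with
  | mem u hu =>
    rcases hu with rfl | hu
    · rw [← sc_comm, mul_inv_cancel_right]; exact hq.sc_i_mem
    · refine hq.mem_grp_iff.2 ⟨?_, hh u hu⟩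
      rw [conj_pow, hq.pow_four, mul_one, mul_inv_cancel]
      rcases hu with rfl | rfl | rfl | rfl
      exacts [hq.x₁_mem, hq.x₂_mem, hq.y₁_mem, hq.y₂_mem]
  | one => rw [mul_one, mul_inv_cancel]; exact one_mem _
  | mul a b _ _ ha hb =>
    rw [show h * (a * b) * h⁻¹ = (h * a * h⁻¹) * (h * b * h⁻¹) by group]
    exact mul_mem ha hb
  | inv a _ ha =>
    rw [show h * a⁻¹ * h⁻¹ = (h * a * h⁻¹)⁻¹ by group]
    exact inv_mem ha

theorem IsQuad.finite_grp : Finite (grp i x₁ x₂ y₁ y₂) :=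
  Nat.finite_of_card_ne_zero (by rw [hq.card_grp]; norm_num)

theorem IsQuad.mem_normalizer {h : GLm ι F}
    (hh : ∀ g ∈ grp i x₁ x₂ y₁ y₂, h * g * h⁻¹ ∈ grp i x₁ x₂ y₁ y₂) :
    h ∈ Cfsg.Geo.subgroupNormalizer (grp i x₁ x₂ y₁ y₂) := by
  have := hq.finite_grp
  rw [Cfsg.Geo.subgroupNormalizer, Subgroup.mem_normalizer_iff]
  refine fun n => ⟨hh n, fun hn => ?_⟩
  let f : grp i x₁ x₂ y₁ y₂ → grp i x₁ x₂ y₁ y₂ := fun g => ⟨h * g * h⁻¹, hh g g.2⟩
  have hf : Function.Injective f :=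
    fun g g' e => Subtype.ext (by simpa [f] using congrArg Subtype.val e)
  obtain ⟨⟨m, hm⟩, hmn⟩ := Finite.injective_iff_surjective.1 hf ⟨_, hn⟩
  have hmn' : h * m * h⁻¹ = h * n * h⁻¹ := congrArg Subtype.val hmn
  rwa [← mul_left_cancel (mul_right_cancel hmn')]

/-- The normaliser does not contain the special linear group. -/
theorem IsQuad.not_specialLinear_le_normalizer :
    ¬ Cfsg.Geo.specialLinear ι F ≤ Cfsg.Geo.subgroupNormalizer (grp i x₁ x₂ y₁ y₂) := by
  intro hle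
  have := hq.nonempty
  obtain ⟨b, e1, -, -, -⟩ := hq.exists_basis
  set v := b (0, 0) with hv
  set u := b (1, 0) with hu
  obtain ⟨φ, hφ⟩ := CfsgLib.Aschbacher.exists_dot_eq (b.coord (0, 0))
  have hφu : φ ⬝ᵥ u = 0 := by simp [hu, hφ]
  have hφv : φ ⬝ᵥ v = 1 := by simp [hv, hφ]
  set T := CfsgLib.Aschbacher.transvec u φ hφu with hT
  have hTmem := hle (CfsgLib.Aschbacher.transvec_mem_specialLinear u φ hφu)
  rw [Cfsg.Geo.subgroupNormalizer, Subgroup.mem_normalizer_iff] at hTmem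
  have hr : T * x₁ * T⁻¹ * x₁⁻¹ ∈ grp i x₁ x₂ y₁ y₂ :=
    mul_mem ((hTmem x₁).1 hq.x₁_mem) (inv_mem hq.x₁_mem)
  have h4 := congrArg (fun g : GLm ι F => g.val *ᵥ v) (hq.pow_four hr)
  have hx₁inv : x₁⁻¹ = x₁ := inv_eq_of_mul_eq_one_right hq.x₁_sq
  rw [hx₁inv] at h4
  have hstep : ∀ (c : F), (T * x₁ * T⁻¹ * x₁).val *ᵥ (v + c • u) = v + (c + 2) • u := by
    intro c
    simp only [Units.val_mul, ← mulVec_mulVec, mulVec_add, mulVec_smul, hv, hu, e1, mulVec_neg,
      Fin.val_zero, Fin.val_one, pow_zero, pow_one, one_smul, neg_smul, smul_neg, hT]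
    simp only [CfsgLib.Aschbacher.transvec_mulVec, CfsgLib.Aschbacher.transvec_inv_mulVec, hφ,
      Basis.coord_apply, b.repr_self, mulVec_sub, mulVec_add, mulVec_smul, mulVec_neg, map_sub,
      map_add, map_smul, map_neg]
    simp [mulVec_smul, mulVec_neg, e1, CfsgLib.Aschbacher.transvec_mulVec, hφ]
    module
  have h1 := hstep 0
  rw [zero_smul, add_zero] at h1
  have h4' : (T * x₁ * T⁻¹ * x₁).val *ᵥ ((T * x₁ * T⁻¹ * x₁).val *ᵥ ((T * x₁ * T⁻¹ * x₁).val *ᵥ
      ((T * x₁ * T⁻¹ * x₁).val *ᵥ v))) = v := by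
    rw [mulVec_mulVec, mulVec_mulVec, mulVec_mulVec, ← Units.val_mul, ← Units.val_mul, ← Units.val_mul]
    rw [Units.val_one, one_mulVec] at h4
    simpa only [pow_succ, pow_zero, one_mul, mul_assoc] using h4
  rw [h1, hstep, hstep, hstep] at h4'
  have h8 : (8 : F) • u = 0 := by linear_combination (norm := module) h4'
  have h8' : (8 : F) = 0 := (smul_eq_zero.1 h8).resolve_right (b.ne_zero _)
  exact pow_ne_zero 3 hq.two (by linear_combination h8')

omit hq

/-- Monomial with coefficients among the fourth roots of unity. -/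
def IsRootMonomial (b : Basis (Fin 2 × Fin 2) F (ι → F)) (g : GLm ι F) : Prop :=
  ∃ (π : Equiv.Perm (Fin 2 × Fin 2)) (c : Fin 2 × Fin 2 → F),
    (∀ k, c k ^ 4 = 1) ∧ ∀ k, g.val *ᵥ b k = c k • b (π k)

include hq

theorem IsQuad.exists_rootMonomial_basis : ∃ b : Basis (Fin 2 × Fin 2) F (ι → F),
    ∀ g ∈ grp i x₁ x₂ y₁ y₂, IsRootMonomial b g := by
  obtain ⟨b, e1, e2, e3, e4⟩ := hq.exists_basis
  refine ⟨b, fun g hg => ?_⟩
  have hmul : ∀ g h, IsRootMonomial b g → IsRootMonomial b h → IsRootMonomial b (g * h) := by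
    rintro g h ⟨π, c, hc4, hc⟩ ⟨π', c', hc4', hc'⟩
    refine ⟨π'.trans π, fun k => c' k * c (π' k), fun k => by rw [mul_pow, hc4', hc4, mul_one],
      fun k => ?_⟩
    rw [Units.val_mul, ← mulVec_mulVec, hc', mulVec_smul, hc, smul_smul, Equiv.trans_apply]
  have hone : IsRootMonomial b (1 : GLm ι F) := ⟨1, fun _ => 1, by simp, fun k => by simp⟩
  induction hg using Subgroup.closure_induction with
  | mem u hu =>
    rcases hu with rfl | rfl | rfl | rfl | rfl
    · refine ⟨1, fun _ => (i : F), fun _ => ?_, fun k => by simp [smul_mulVec]⟩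
      rw [← Units.val_pow_eq_pow_val, hq.i_pow_four, Units.val_one]
    · refine ⟨1, fun k => (-1 : F) ^ (k.1 : ℕ), fun k => ?_, fun k => by simp [e1]⟩
      rw [← pow_mul, mul_comm, pow_mul]; norm_num
    · refine ⟨1, fun k => (-1 : F) ^ (k.2 : ℕ), fun k => ?_, fun k => by simp [e2]⟩
      rw [← pow_mul, mul_comm, pow_mul]; norm_num
    · exact ⟨(Equiv.addRight (1 : Fin 2)).prodCongr (Equiv.refl _), fun _ => 1, by simp,
        fun k => by simp [e3]; rfl⟩
    · exact ⟨(Equiv.refl _).prodCongr (Equiv.addRight (1 : Fin 2)), fun _ => 1, by simp,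
        fun k => by simp [e4]; rfl⟩
  | one => exact hone
  | mul a b _ _ ha hb => exact hmul _ _ ha hb
  | inv a ha' ha =>
    have h3 : a⁻¹ = a * a * a := inv_eq_of_mul_eq_one_right (by
      simpa [pow_succ', mul_assoc] using hq.pow_four ha')
    rw [h3]; exact hmul _ _ (hmul _ _ ha ha) ha

theorem IsQuad.exists_realisable {F₀ : Subfield F} (hi : (i : F) ∈ F₀) :
    ∃ B : GLm ι F, ∀ s ∈ Cfsg.Geo.matrixSet (grp i x₁ x₂ y₁ y₂), ∀ a b,
      (B.val * s * (B⁻¹ : GLm ι F).val) a b ∈ F₀ := by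
  obtain ⟨b, hb⟩ := hq.exists_rootMonomial_basis
  let e : Fin 2 × Fin 2 ≃ ι := Fintype.equivOfCardEq (by simp [hq.card])
  let b' := b.reindex e
  let P : GLm ι F := ⟨(Pi.basisFun F ι).toMatrix b', b'.toMatrix (Pi.basisFun F ι),
    Basis.toMatrix_mul_toMatrix_flip _ _, Basis.toMatrix_mul_toMatrix_flip _ _⟩
  refine ⟨P⁻¹, ?_⟩
  rintro _ ⟨g, hg, rfl⟩ a c
  obtain ⟨π, d, hd4, hd⟩ := hb g hg
  have hval : (P⁻¹ : GLm ι F).val * g.val * P.val = LinearMap.toMatrix b' b' (Matrix.toLin' g.val) := by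
    have h := basis_toMatrix_mul_linearMap_toMatrix_mul_basis_toMatrix b' (Pi.basisFun F ι) b'
      (Pi.basisFun F ι) (Matrix.toLin' g.val)
    rw [LinearMap.toMatrix_eq_toMatrix', LinearMap.toMatrix'_toLin'] at h
    exact h
  rw [inv_inv, hval, LinearMap.toMatrix_apply, Matrix.toLin'_apply]
  simp only [b', Basis.repr_reindex_apply, Basis.reindex_apply, hd, map_smul, b.repr_self,
    Finsupp.smul_apply, Finsupp.single_apply, smul_eq_mul, mul_ite, mul_one, mul_zero]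
  split
  · have hd0 : d (e.symm c) ≠ 0 := fun h0 => by simpa [h0] using hd4 (e.symm c)
    obtain ⟨k, hk⟩ := hq.exists_pow_i (c := Units.mk0 _ hd0) (Units.ext (by simpa using hd4 (e.symm c)))
    have hk' : d (e.symm c) = (i : F) ^ (k : ℕ) := by simpa using congrArg Units.val hk
    rw [hk']; exact pow_mem hi _
  · exact zero_mem _

theorem IsQuad.exists_unitary {σ : F ≃+* F} (hne : σ ≠ RingEquiv.refl F) (hinv : ∀ a, σ (σ a) = a)
    (hi : σ i = -(i : F)) : ∃ f, Cfsg.Geo.IsUnitaryForm σ f ∧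
      Cfsg.Geo.FixesForm (Cfsg.Geo.matrixSet (grp i x₁ x₂ y₁ y₂)) f := by
  obtain ⟨b, hb⟩ := hq.exists_rootMonomial_basis
  let e : Fin 2 × Fin 2 ≃ ι := Fintype.equivOfCardEq (by simp [hq.card])
  refine ⟨diagForm σ (b.reindex e), isUnitaryForm_diagForm hne hinv _, ?_⟩
  rintro _ ⟨g, hg, rfl⟩ u v
  obtain ⟨π, d, hd4, hd⟩ := hb g hg
  have hi' : (i : F) * i = -1 := by simpa using congrArg Units.val hq.sq_i
  have hnorm : ∀ k, d k * σ (d k) = 1 := fun k => by
    have hd0 : d k ≠ 0 := fun h0 => by simpa [h0] using hd4 k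
    obtain ⟨m, hm⟩ := hq.exists_pow_i (c := Units.mk0 _ hd0) (Units.ext (by simpa using hd4 k))
    have hm' : d k = (i : F) ^ (m : ℕ) := by simpa using congrArg Units.val hm
    rw [hm', map_pow, hi, ← mul_pow, mul_neg, hi', neg_neg, one_pow]
  have hd' : ∀ k, g.val *ᵥ (b.reindex e) k =
      d (e.symm k) • (b.reindex e) (((e.symm.trans π).trans e) k) := fun k => by simp [hd]
  simp only [diagForm]
  rw [← Equiv.sum_comp ((e.symm.trans π).trans e)]
  refine Finset.sum_congr rfl fun k _ => ?_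
  rw [repr_monomial hd', repr_monomial hd', map_mul, mul_mul_mul_comm, hnorm, one_mul]

end CfsgLib.AschLinear.Pauli
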