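import Mathlib
import Cfsg.Agent.Eq.Def_GeometricClasses
import Cfsg.Agent.AschLinear.Dim4Forms
import Cfsg.Agent.AschLinear.PauliGroup
import Cfsg.Agent.Aschbacher.NormalStructure

/-!
An irreducible group of four by four matrices of determinant one with a normal subgroup elementary
abelian modulo scalars lies in the normaliser of a symplectic-type two-group, in a subfield group or
in a similarity group.
-/

set_option autoImplicit false
set_option linter.unusedSectionVars false

namespace CfsgLib.AschLinear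

open Matrix Module CfsgLib.AschLinear.Pauli

variable {ι : Type} [Fintype ι] [DecidableEq ι] {F : Type*} [Field F]

local notation "GLm" => Matrix.GeneralLinearGroup

/-- The overgroups that absorb the two-group and small monomial cases in dimension four. -/
def TwoTarget [Fintype F] (H : Subgroup (GLm ι F)) : Prop :=
  (∃ (F₀ : Subfield F) (r : ℕ) (P : GLm ι F), r.Prime ∧ Fintype.card F = Nat.card F₀ ^ r ∧ F₀ ≠ ⊤ ∧
    H ≤ Cfsg.Geo.subfieldSubgroup F₀ P) ∨
  (∃ (p : ℕ) (R : Subgroup (GLm ι F)), p.Prime ∧ Fintype.card F = p ∧ p % 4 = 1 ∧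
    Cfsg.Geo.IsLinearSymplecticTypeData 2 R ∧
    ¬ Cfsg.Geo.specialLinear ι F ≤ Cfsg.Geo.subgroupNormalizer R ∧
    H ≤ Cfsg.Geo.subgroupNormalizer R) ∨
  (Odd (Fintype.card F) ∧ ∃ Q, Cfsg.Geo.IsNondegenerateQuadraticForm Q ∧
    H ≤ Cfsg.Geo.quadSimilarityGroup Q) ∨
  (∃ f, Cfsg.Geo.IsSymplecticForm f ∧ H ≤ Cfsg.Geo.similarityGroup f) ∨
  (∃ (σ : F ≃+* F) (f : (ι → F) → (ι → F) → F), Cfsg.Geo.IsUnitaryForm σ f ∧
    H ≤ Cfsg.Geo.similarityGroup f)

/-- A group normalising a quadruple group lands in one of the targets. -/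
theorem twoTarget_of_isQuad [Fintype F] {H : Subgroup (GLm ι F)} {i : Fˣ} {x₁ x₂ y₁ y₂ : GLm ι F}
    (hq : IsQuad i x₁ x₂ y₁ y₂)
    (hH : ∀ h ∈ H, ∀ g ∈ grp i x₁ x₂ y₁ y₂, h * g * h⁻¹ ∈ grp i x₁ x₂ y₁ y₂) : TwoTarget H := by
  have := hq.nonempty
  set F₀ := Subfield.closure {(i : F)} with hF₀
  have hiF₀ : (i : F) ∈ F₀ := Subfield.subset_closure rfl
  by_cases htop : F₀ = ⊤
  swap
  · obtain ⟨F₁, r, hle, hr, hcard, hne⟩ :=
      CfsgLib.Aschbacher.exists_subfield_prime_index htop
    obtain ⟨B, hB⟩ := hq.exists_realisable (hle hiF₀)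
    exact Or.inl ⟨F₁, r, B⁻¹, hr, hcard, hne,
      CfsgLib.Aschbacher.le_subfieldSubgroup_of_realisable hq.absIrred hH hB⟩
  obtain ⟨p, hpchar⟩ := CharP.exists F
  obtain ⟨e, hp, hcard⟩ := FiniteField.card F p
  haveI : Fact p.Prime := ⟨hp⟩
  haveI : ExpChar F p := ExpChar.prime hp
  by_cases hcp : Fintype.card F = p
  · obtain ⟨h4, hdata⟩ := hq.isSymplecticTypeData hp hcp
    exact Or.inr (Or.inl ⟨p, _, hp, hcp, h4, hdata, hq.not_specialLinear_le_normalizer,
      fun h hh => hq.mem_normalizer (hH h hh)⟩)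
  -- otherwise the Frobenius moves the square root of minus one
  set σ : F ≃+* F := frobeniusEquiv F p with hσ
  have hσval : ∀ a, σ a = a ^ p := fun a => by simp [hσ, frobeniusEquiv_apply, frobenius_def]
  have hext : ∀ τ : F ≃+* F, τ i = i → ∀ a, τ a = a := by
    intro τ hτ a
    have ha : a ∈ F₀ := htop ▸ trivial
    exact RingHom.eqOn_field_closure (f := τ.toRingHom) (g := RingHom.id F)
      (fun z hz => by rw [Set.mem_singleton_iff.1 hz]; exact hτ) ha
  have hi2 : (i : F) * i = -1 := by simpa using congrArg Units.val hq.sq_i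
  have hσi : σ i = -(i : F) := by
    have h : σ i * σ i = (i : F) * i := by rw [← map_mul, hi2, map_neg, map_one]
    rcases mul_self_eq_mul_self_iff.1 h with h' | h'
    · exfalso
      have hfix := hext σ h'
      have hexp : Monoid.exponent Fˣ ∣ p - 1 := Monoid.exponent_dvd_of_forall_pow_eq_one fun u => by
        have hu : u ^ p = u := Units.ext (by
          rw [Units.val_pow_eq_pow_val, ← hσval]; exact hfix _)
        have h1 : u ^ (p - 1) * u = 1 * u := by
          rw [← pow_succ, Nat.sub_add_cancel hp.one_le, hu, one_mul]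
        exact mul_right_cancel h1
      rw [IsCyclic.exponent_eq_card, Nat.card_units, Nat.card_eq_fintype_card] at hexp
      have h2 := Nat.le_of_dvd (by have := hp.two_le; omega) hexp
      have h3 : p ≤ Fintype.card F := hcard ▸ Nat.le_self_pow e.ne_zero p
      exact hcp (le_antisymm (by
        have := hp.two_le
        clear_value σ
        rw [Nat.sub_le_sub_iff_right hp.one_le] at h2
        exact h2) h3)
    · exact h'
  have hne : σ ≠ RingEquiv.refl F := fun h => by
    rw [h, RingEquiv.refl_apply] at hσi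
    exact i.ne_zero ((mul_eq_zero.1 (show (2 : F) * i = 0 by linear_combination hσi)).resolve_left
      hq.two)
  have hinv : ∀ a, σ (σ a) = a := hext (σ.trans σ) (by simp [hσi])
  obtain ⟨f, hf, hfix⟩ := hq.exists_unitary hne hinv hσi
  exact Or.inr (Or.inr (Or.inr (Or.inr ⟨σ, f, hf,
    CfsgLib.Aschbacher.le_similarityGroup_of_normalizes hq.absIrred hH
      (CfsgLib.Aschbacher.IsSesquiForm.of_unitary hf) hf.nondegenerate hfix⟩)))

/-- An element of a group times a scalar. -/
def InScaled (N : Subgroup (GLm ι F)) (g : GLm ι F) : Prop :=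
  ∃ (c : Fˣ) (x : GLm ι F), x ∈ N ∧ g = sc c * x

theorem exists_eigen_one {x y : GLm ι F} [Nonempty ι] (hx : x * x = 1) (hxy : CommSign (-1) x y) :
    ∃ v : ι → F, v ≠ 0 ∧ x.val *ᵥ v = v := by
  have hsq : ∀ w : ι → F, x.val *ᵥ (x.val *ᵥ w) = w := fun w => by
    rw [mulVec_mulVec, ← Units.val_mul, hx, Units.val_one, one_mulVec]
  obtain ⟨w, hw⟩ := exists_ne (0 : ι → F)
  rcases eq_or_ne (w + x.val *ᵥ w) 0 with h | h
  · refine ⟨y.val *ᵥ w, fun h0 => hw (CfsgLib.Aschbacher.mulVec_inj y (h0.trans (mulVec_zero _).symm)), ?_⟩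
    rw [mulVec_mulVec, ← Units.val_mul, hxy]
    simp only [Units.val_mul, sc_val, Units.val_neg, Units.val_one, Matrix.smul_mul, one_mul,
      smul_mulVec, ← mulVec_mulVec, eq_neg_of_add_eq_zero_right h, mulVec_neg, smul_neg]
    simp
  · exact ⟨_, h, by rw [mulVec_add, hsq, add_comm]⟩

section

variable [Fintype F] {H N : Subgroup (GLm ι F)} {r : ℕ}

theorem two_eq_of_abelianData (hn : Fintype.card ι = 4) (hN : CfsgLib.Aschbacher.AbelianData H N r) :
    r = 2 := by
  have hr := hN.prime
  obtain ⟨x, hx, hxs⟩ : ∃ x ∈ N, x ∉ Cfsg.Geo.scalars ι F := by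
    simpa [SetLike.le_def] using hN.not_scalar
  let q : N ⧸ (Cfsg.Geo.scalars ι F).subgroupOf N := QuotientGroup.mk ⟨x, hx⟩
  haveI := Fact.mk hr
  have h1 : orderOf q = r := by
    refine orderOf_eq_prime ?_ fun h => hxs ?_
    · show QuotientGroup.mk ((⟨x, hx⟩ : N) ^ r) = 1
      exact (QuotientGroup.eq_one_iff _).2 (hN.pow_mem x hx)
    · exact (QuotientGroup.eq_one_iff (⟨x, hx⟩ : N)).1 h
  have h2 : orderOf q ∣ Nat.card (N ⧸ (Cfsg.Geo.scalars ι F).subgroupOf N) := orderOf_dvd_natCard q
  rw [h1, hN.card_eq, hn, show (4 : ℕ) ^ 2 = 2 ^ 4 by norm_num] at h2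
  exact (Nat.prime_dvd_prime_iff_eq hr Nat.prime_two).1 (hr.dvd_of_dvd_pow h2)

/-- The two-group case in dimension four. -/
theorem twoTarget_of_abelianData (hn : Fintype.card ι = 4)
    (hSL : H ≤ Cfsg.Geo.specialLinear ι F) (hN : CfsgLib.Aschbacher.AbelianData H N r) :
    TwoTarget H := by
  classical
  haveI : Nonempty ι := Fintype.card_pos_iff.1 (by omega)
  obtain rfl := two_eq_of_abelianData hn hN
  have hneg : ((-1 : Fˣ) * -1) = 1 := by simp
  have hdet : ∀ x ∈ N, x.val.det = 1 := fun x hx => by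
    simpa using congrArg Units.val (MonoidHom.mem_ker.1 (hSL (hN.le hx)))
  have hsign : ∀ x ∈ N, ∀ y ∈ N, CommSign 1 x y ∨ CommSign (-1) x y := by
    intro x hx y hy
    obtain ⟨c, hc⟩ := hN.comm x hx y hy
    have hxy : x * y = sc c * (y * x) := by rw [show sc c = x * y * x⁻¹ * y⁻¹ from hc]; group
    have h2 : (x * x) * y = y * (x * x) :=
      (CfsgLib.Aschbacher.commute_of_mem_scalars (by simpa [pow_two] using hN.pow_mem x hx) y).symm
    have h3 : (x * x) * y = sc (c * c) * (y * (x * x)) := by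
      calc (x * x) * y = x * (x * y) := mul_assoc _ _ _
        _ = x * (sc c * (y * x)) := by rw [hxy]
        _ = sc c * ((x * y) * x) := by rw [← mul_assoc, ← sc_comm, mul_assoc, mul_assoc x y x]
        _ = sc (c * c) * (y * (x * x)) := by rw [hxy, sc_mul]; simp only [mul_assoc]
    have h4 : sc (c * c) = (1 : GLm ι F) := by
      rw [h2] at h3
      exact mul_eq_right.1 h3.symm
    have h5 : c * c = 1 := sc_injective (h4.trans sc_one.symm)
    have h6 : (c : F) * c = 1 := by simpa using congrArg Units.val h5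
    rcases mul_self_eq_one_iff.1 h6 with h | h
    · exact Or.inl (by rwa [show c = 1 from Units.ext h] at hxy)
    · exact Or.inr (by rwa [show c = -1 from Units.ext (by simpa using h)] at hxy)
  have hnotscal : ∀ {g : GLm ι F}, g ∉ Cfsg.Geo.scalars ι F → ∀ {u}, InScaled N u → g = u →
      ∃ y ∈ N, CommSign (-1) g y := by
    intro g hg u hu hgu
    subst hgu
    obtain ⟨c, x, hx, rfl⟩ := hu
    by_contra! hall
    apply hg
    obtain ⟨d, hd⟩ := hN.absIrred.2 x.val (by
      rintro _ ⟨y, hy, rfl⟩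
      rcases hsign x hx y hy with h | h
      · rw [← Units.val_mul, commSign_one.1 h, Units.val_mul]
      · exact absurd (by simpa using (commSign_sc c y).mul_left h) (hall y hy))
    have hd0 : d ≠ 0 := fun h0 => x.ne_zero (by rw [hd, h0, zero_smul])
    refine (Cfsg.Geo.mem_scalars_iff _).2 ⟨c * Units.mk0 d hd0, ?_⟩
    simp [hd, smul_smul, mul_comm]
  have hInN : ∀ {x}, x ∈ N → InScaled N x := fun {x} hx => ⟨1, x, hx, by rw [sc_one, one_mul]⟩
  have h2 : (2 : F) ≠ 0 := by
    intro h2
    obtain ⟨x, hx, hxs⟩ : ∃ x ∈ N, x ∉ Cfsg.Geo.scalars ι F := by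
      simpa [SetLike.le_def] using hN.not_scalar
    apply hxs
    obtain ⟨y, hy, hxy⟩ : ∃ y ∈ N, CommSign (-1) x y := hnotscal hxs (hInN hx) rfl
    exfalso
    have hm : (-1 : Fˣ) = 1 := Units.ext (by
      simp only [Units.val_neg, Units.val_one]
      linear_combination -h2)
    rw [hm] at hxy
    -- then everything commutes
    obtain ⟨d, hd⟩ := hN.absIrred.2 x.val (by
      rintro _ ⟨z, hz, rfl⟩
      rcases hsign x hx z hz with h | h
      · rw [← Units.val_mul, commSign_one.1 h, Units.val_mul]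
      · rw [hm] at h; rw [← Units.val_mul, commSign_one.1 h, Units.val_mul])
    exact hxs ((Cfsg.Geo.mem_scalars_iff _).2
      ⟨Units.mk0 d (fun h0 => x.ne_zero (by rw [hd, h0, zero_smul])), hd⟩)
  have hsq : ∀ x ∈ N, x ∉ Cfsg.Geo.scalars ι F → x * x = 1 ∨ x * x = sc (-1) := by
    intro x hx hxs
    obtain ⟨s, hs⟩ := hN.pow_mem x hx
    have hs' : sc s = x * x := hs.trans (sq x)
    obtain ⟨y, hy, hxy⟩ := hnotscal hxs (hInN hx) rfl
    have h := det_eq_sq_of_anticommute hn h2 (s := (s : F)) (by rw [← Units.val_mul, ← hs', sc_val]) y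
      (by rw [← Units.val_mul, hxy]; simp)
    rw [hdet x hx] at h
    rcases sq_eq_one_iff.1 h.symm with hs1 | hs1
    · exact Or.inl (by rw [← hs', show s = 1 from Units.ext hs1, sc_one])
    · exact Or.inr (by rw [← hs', show s = -1 from Units.ext (by simpa using hs1)])
  by_cases hi : ∃ i : Fˣ, i * i = -1
  · obtain ⟨i, hi⟩ := hi
    have hsignI : ∀ {g u}, InScaled N g → InScaled N u → CommSign 1 g u ∨ CommSign (-1) g u := by
      rintro _ _ ⟨c, x, hx, rfl⟩ ⟨d, y, hy, rfl⟩
      have key : ∀ s : Fˣ, s * s = 1 → CommSign s x y → CommSign s (sc c * x) (sc d * y) := by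
        intro s hs h
        have h1 : CommSign s (sc c * x) y := by simpa using (commSign_sc c y).mul_left h
        have h2 := ((commSign_sc d (sc c * x)).mul_left (h1.symm hs)).symm (by simp [hs])
        simpa using h2
      rcases hsign x hx y hy with h | h
      · exact Or.inl (key 1 (by simp) h)
      · exact Or.inr (key _ hneg h)
    have hmulI : ∀ {g u}, InScaled N g → InScaled N u → InScaled N (g * u) := by
      rintro _ _ ⟨c, x, hx, rfl⟩ ⟨d, y, hy, rfl⟩
      refine ⟨c * d, x * y, mul_mem hx hy, ?_⟩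
      rw [sc_mul]
      simp only [mul_assoc]
      congr 1
      rw [← mul_assoc x, ← sc_comm d x, mul_assoc]
    have hnormalise : ∀ g, InScaled N g → g ∉ Cfsg.Geo.scalars ι F →
        ∃ c : Fˣ, InScaled N (sc c * g) ∧ (sc c * g) * (sc c * g) = 1 := by
      rintro _ ⟨c, x, hx, rfl⟩ hgs
      have hxs : x ∉ Cfsg.Geo.scalars ι F := fun h => hgs (mul_mem ⟨c, rfl⟩ h)
      rcases hsq x hx hxs with h | h
      · refine ⟨c⁻¹, ?_, ?_⟩ <;> rw [← mul_assoc (sc c⁻¹), ← sc_mul, inv_mul_cancel, sc_one, one_mul]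
        exacts [hInN hx, h]
      · refine ⟨i * c⁻¹, ?_, ?_⟩ <;> rw [← mul_assoc (sc (i * c⁻¹)), ← sc_mul, inv_mul_cancel_right]
        · exact ⟨i, x, hx, rfl⟩
        · rw [mul_assoc, ← mul_assoc x, ← sc_comm, mul_assoc (sc i) x x, h, ← sc_mul, ← sc_mul,
            mul_neg_one, mul_neg, hi, neg_neg, sc_one]
    have hscalar_commutes : ∀ {g : GLm ι F} u, g ∈ Cfsg.Geo.scalars ι F → CommSign 1 g u := by
      rintro g u ⟨c, rfl⟩; exact commSign_sc c u
    have hanti_not : ∀ {g u : GLm ι F}, CommSign (-1) g u → g ∉ Cfsg.Geo.scalars ι F := by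
      intro g u h hg
      have := (hscalar_commutes u hg).unique h
      exact h2 (by have h' := congrArg Units.val this; simp at h'; linear_combination h')
    have hscale : ∀ {g u : GLm ι F} (s c : Fˣ), CommSign s g u → CommSign s (sc c * g) u :=
      fun s c h => by simpa using (commSign_sc c _).mul_left h
    -- first pair
    obtain ⟨a, ha, has⟩ : ∃ x ∈ N, x ∉ Cfsg.Geo.scalars ι F := by
      simpa [SetLike.le_def] using hN.not_scalar
    obtain ⟨c, hx1, hx1sq⟩ := hnormalise a (hInN ha) has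
    set x₁ := sc c * a with hx₁
    obtain ⟨b, hb, hab⟩ := hnotscal has (hInN ha) rfl
    have hx1b : CommSign (-1) x₁ b := hscale _ _ hab
    obtain ⟨d, hy1, hy1sq⟩ := hnormalise b (hInN hb) (hanti_not (hab.symm hneg))
    set y₁ := sc d * b with hy₁
    have hx1y1 : CommSign (-1) x₁ y₁ := (hscale _ d (hx1b.symm hneg)).symm hneg
    -- adjust to commute with the first pair
    have adjust : ∀ g, InScaled N g → ∃ a b : Fin 2,
        InScaled N (y₁ ^ (a : ℕ) * (x₁ ^ (b : ℕ) * g)) ∧
        CommSign 1 (y₁ ^ (a : ℕ) * (x₁ ^ (b : ℕ) * g)) x₁ ∧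
        CommSign 1 (y₁ ^ (a : ℕ) * (x₁ ^ (b : ℕ) * g)) y₁ := by
      intro g hg
      obtain ⟨b, hb1, hb2⟩ : ∃ b : Fin 2, InScaled N (x₁ ^ (b : ℕ) * g) ∧
          CommSign 1 (x₁ ^ (b : ℕ) * g) y₁ := by
        rcases hsignI hg hy1 with h | h
        · exact ⟨0, by simpa using hg, by simpa using h⟩
        · exact ⟨1, by simpa using hmulI hx1 hg, by simpa [hneg] using hx1y1.mul_left h⟩
      set g' := x₁ ^ (b : ℕ) * g
      rcases hsignI hb1 hx1 with h | h
      · exact ⟨0, b, by simpa using hb1, by simpa using h, by simpa using hb2⟩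
      · refine ⟨1, b, by simpa using hmulI hy1 hb1, ?_, ?_⟩
        · simpa [hneg, g'] using (hx1y1.symm hneg).mul_left h
        · simpa [g'] using (commSign_self y₁).mul_left hb2
    obtain ⟨z, hz, hzs, hzx, hzy⟩ : ∃ z, InScaled N z ∧ z ∉ Cfsg.Geo.scalars ι F ∧
        CommSign 1 z x₁ ∧ CommSign 1 z y₁ := by
      by_contra hnone
      obtain ⟨v, hv, hxv⟩ := exists_eigen_one hx1sq hx1y1
      let W : Submodule F (ι → F) := Submodule.span F {v, y₁.val *ᵥ v}
      have hyW : ∀ w ∈ W, y₁.val *ᵥ w ∈ W := fun w hw => by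
        obtain ⟨s, t, rfl⟩ := Submodule.mem_span_pair.1 hw
        refine Submodule.mem_span_pair.2 ⟨t, s, ?_⟩
        rw [mulVec_add, mulVec_smul, mulVec_smul, mulVec_mulVec, ← Units.val_mul, hy1sq,
          Units.val_one, one_mulVec, add_comm]
      have hxW : ∀ w ∈ W, x₁.val *ᵥ w ∈ W := fun w hw => by
        obtain ⟨s, t, rfl⟩ := Submodule.mem_span_pair.1 hw
        refine Submodule.mem_span_pair.2 ⟨s, -t, ?_⟩
        rw [mulVec_add, mulVec_smul, mulVec_smul, hxv, mulVec_mulVec, ← Units.val_mul,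
          show x₁ * y₁ = sc (-1) * (y₁ * x₁) from hx1y1]
        simp [smul_mulVec, neg_mulVec, ← mulVec_mulVec, hxv, mulVec_neg]
      have hNW : ∀ s ∈ Cfsg.Geo.matrixSet N, W.map (Matrix.toLin' s) ≤ W := by
        rintro _ ⟨g, hg, rfl⟩ _ ⟨w, hw, rfl⟩
        obtain ⟨a, b, hI, hx, hy⟩ := adjust g (hInN hg)
        obtain ⟨e, he⟩ : y₁ ^ (a : ℕ) * (x₁ ^ (b : ℕ) * g) ∈ Cfsg.Geo.scalars ι F := by
          by_contra hns
          exact hnone ⟨_, hI, hns, hx, hy⟩
        change sc e = _ at he
        have hge : g = x₁ ^ (b : ℕ) * (y₁ ^ (a : ℕ) * sc e) := by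
          rw [he]
          have p1 : y₁ ^ (a : ℕ) * y₁ ^ (a : ℕ) = 1 := by fin_cases a <;> simp [hy1sq]
          have p2 : x₁ ^ (b : ℕ) * x₁ ^ (b : ℕ) = 1 := by fin_cases b <;> simp [hx1sq]
          rw [← mul_assoc (y₁ ^ (a : ℕ)), p1, one_mul, ← mul_assoc, p2, one_mul]
        show g.val *ᵥ w ∈ W
        rw [hge, Units.val_mul, Units.val_mul, ← mulVec_mulVec, ← mulVec_mulVec, sc_val, smul_mulVec,
          one_mulVec]
        have h1 : (y₁ ^ (a : ℕ)).val *ᵥ ((e : F) • w) ∈ W := by
          fin_cases a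
          · simpa using hw
          · simpa [mulVec_smul] using hyW _ hw
        fin_cases b
        · simpa using h1
        · simpa using hxW _ h1
      rcases hN.absIrred.1 W hNW with h | h
      · exact hv (by
          have : v ∈ W := Submodule.subset_span (by simp)
          rwa [h, Submodule.mem_bot] at this)
      · have hle : finrank F W ≤ 2 :=
          (finrank_span_le_card _).trans (by
            rw [Set.toFinset_insert, Set.toFinset_singleton]; exact Finset.card_le_two)
        rw [h, finrank_top, Module.finrank_pi, hn] at hle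
        omega
    obtain ⟨c2, hx2, hx2sq⟩ := hnormalise z hz hzs
    set x₂ := sc c2 * z with hx₂
    have hx2x1 : CommSign 1 x₂ x₁ := hscale _ _ hzx
    have hx2y1 : CommSign 1 x₂ y₁ := hscale _ _ hzy
    have hx2s : x₂ ∉ Cfsg.Geo.scalars ι F := fun h => hzs (by
      simpa [hx₂, ← mul_assoc, ← sc_mul, sc_one] using
        mul_mem (show sc c2⁻¹ ∈ Cfsg.Geo.scalars ι F from ⟨c2⁻¹, rfl⟩) h)
    obtain ⟨w, hw, hxw⟩ := hnotscal hx2s hx2 rfl
    obtain ⟨a', b', hI, hx', hy'⟩ := adjust w (hInN hw)
    set w' := y₁ ^ (a' : ℕ) * (x₁ ^ (b' : ℕ) * w) with hw'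
    have hw'x2 : CommSign (-1) w' x₂ := by
      have h1 : CommSign 1 (y₁ ^ (a' : ℕ)) x₂ := by
        fin_cases a'
        · simpa using one_commSign x₂
        · simpa using hx2y1.symm (one_mul 1)
      have h2 : CommSign 1 (x₁ ^ (b' : ℕ)) x₂ := by
        fin_cases b'
        · simpa using one_commSign x₂
        · simpa using hx2x1.symm (one_mul 1)
      simpa [hw'] using h1.mul_left (h2.mul_left (hxw.symm hneg))
    obtain ⟨d2, hy2, hy2sq⟩ := hnormalise w' hI (hanti_not hw'x2)
    set y₂ := sc d2 * w' with hy₂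
    have hq : IsQuad i x₁ x₂ y₁ y₂ :=
      { card := hn, two := h2, sq_i := hi, x₁_sq := hx1sq, x₂_sq := hx2sq, y₁_sq := hy1sq,
        y₂_sq := hy2sq, xx := hx2x1.symm (one_mul 1), x₁y₁ := hx1y1,
        yy := (hscale _ d2 hy').symm (one_mul 1), x₂y₂ := (hscale _ d2 hw'x2).symm hneg,
        x₁y₂ := (hscale _ d2 hx').symm (one_mul 1), x₂y₁ := hx2y1 }
    refine twoTarget_of_isQuad hq fun h hh g hg => hq.conj_mem (fun u hu v hv => ?_) hg
    have hgen : ∀ u ∈ ({x₁, x₂, y₁, y₂} : Set (GLm ι F)), InScaled N u := by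
      rintro u (rfl | rfl | rfl | rfl) <;> assumption
    obtain ⟨cu, xu, hxu, rfl⟩ := hgen u hu
    refine hsignI ⟨cu, h * xu * h⁻¹, hN.normal h hh xu hxu, ?_⟩ (hgen v hv)
    rw [← mul_assoc h, ← sc_comm, mul_assoc (sc cu) h, mul_assoc (sc cu)]
  · -- no square root of minus one: an invariant bilinear form
    push Not at hi
    haveI : Fintype N := Fintype.ofFinite N
    have hscal : ∀ x ∈ N, x ∈ Cfsg.Geo.scalars ι F → x = 1 ∨ x = sc (-1) := by
      rintro x hx ⟨c, hc⟩
      have hcd : (c : F) ^ 2 * (c : F) ^ 2 = 1 := by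
        have h := hdet x hx
        rw [← hc] at h
        change ((sc c : GLm ι F).val).det = 1 at h
        rw [sc_val, det_smul, det_one, mul_one, hn] at h
        linear_combination h
      rcases mul_self_eq_one_iff.1 hcd with h | h
      · rcases sq_eq_one_iff.1 h with h' | h'
        · exact Or.inl (by rw [← hc, show c = 1 from Units.ext h']; exact sc_one)
        · exact Or.inr (by rw [← hc, show c = -1 from Units.ext (by simpa using h')]; rfl)
      · exact absurd (Units.ext (by simpa [sq] using h)) (hi c)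
    have htr : ∀ x ∈ N, x ∉ Cfsg.Geo.scalars ι F → x.val.trace = 0 := by
      intro x hx hxs
      obtain ⟨y, hy, hxy⟩ := hnotscal hxs (hInN hx) rfl
      have hconj : y.val * x.val * (y⁻¹ : GLm ι F).val = -x.val := by
        rw [← Units.val_mul, ← Units.val_mul, show y * x = sc (-1) * (x * y) from hxy.symm hneg]
        simp [mul_assoc]
      have h : x.val.trace = (-x.val).trace := by
        rw [← hconj, Matrix.trace_mul_cycle, ← Units.val_mul, inv_mul_cancel, Units.val_one, one_mul]
      rw [Matrix.trace_neg] at h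
      exact (mul_eq_zero.1 (show (2 : F) * x.val.trace = 0 by linear_combination h)).resolve_left h2
    have hne : ∃ a b : ι, (∑ x : N, (x : GLm ι F).valᵀ * Matrix.single a b 1 * (x : GLm ι F).val) ≠ 0 := by
      by_contra! hall
      have hsum : ∑ x : N, ((x : GLm ι F).val.trace) ^ 2 = 0 := by
        have h : ∀ a b : ι, ∑ x : N, (x : GLm ι F).val a a * (x : GLm ι F).val b b = 0 := by
          intro a b
          have h' := congrFun (congrFun (hall a b) a) b
          rw [Matrix.sum_apply, Matrix.zero_apply] at h'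
          rw [← h']
          refine Finset.sum_congr rfl fun x _ => ?_
          simp [Matrix.mul_apply, Matrix.single_apply, ite_and]
        simp only [Matrix.trace, Matrix.diag_apply, sq, Finset.sum_mul, Finset.mul_sum]
        rw [Finset.sum_comm]
        refine Finset.sum_eq_zero fun a _ => ?_
        rw [Finset.sum_comm]
        exact Finset.sum_eq_zero fun b _ => h b a
      have hs : ∀ x : N, ((x : GLm ι F).val.trace) ^ 2 =
          if (x : GLm ι F) ∈ Cfsg.Geo.scalars ι F then (16 : F) else 0 := by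
        intro x
        split_ifs with hx
        · rcases hscal _ x.2 hx with h | h <;> rw [h] <;>
            simp [Matrix.trace_smul, Matrix.trace_one, hn] <;> norm_num
        · rw [htr _ x.2 hx]; ring
      rw [Finset.sum_congr rfl (fun x _ => hs x), Finset.sum_ite, Finset.sum_const_zero, add_zero,
        Finset.sum_const, nsmul_eq_mul] at hsum
      set S := Finset.univ.filter fun x : N => (x : GLm ι F) ∈ Cfsg.Geo.scalars ι F with hS
      have h16 : (16 : F) ≠ 0 := by
        rw [show (16 : F) = 2 ^ 4 by norm_num]; exact pow_ne_zero _ h2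
      have hS0 : ((S.card : ℕ) : F) = 0 := (mul_eq_zero.1 hsum).resolve_right h16
      have hpos : 0 < S.card := Finset.card_pos.2 ⟨1, by simp [hS, one_mem]⟩
      have hle : S.card ≤ 2 := by
        refine le_trans (Finset.card_le_card_of_injOn (fun x : N => (x : GLm ι F))
          (t := ({1, sc (-1)} : Finset (GLm ι F))) ?_ (fun a _ b _ h => Subtype.ext h))
          Finset.card_le_two
        intro x hx
        have hx' : (x : GLm ι F) ∈ Cfsg.Geo.scalars ι F := by simpa [hS] using hx
        simpa using hscal _ x.2 hx'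
      interval_cases S.card
      · exact (one_ne_zero : (1 : F) ≠ 0) (by simpa using hS0)
      · exact h2 (by simpa using hS0)
    obtain ⟨a, b, hG⟩ := hne
    set G := ∑ x : N, (x : GLm ι F).valᵀ * Matrix.single a b 1 * (x : GLm ι F).val with hGdef
    have hinvG : ∀ y ∈ N, y.valᵀ * G * y.val = G := by
      intro y hy
      rw [hGdef, Finset.mul_sum, Finset.sum_mul]
      refine Fintype.sum_equiv (Equiv.mulRight ⟨y, hy⟩) _ _ fun x => ?_
      simp [Matrix.transpose_mul, mul_assoc]
    let f : (ι → F) → (ι → F) → F := fun u v => u ⬝ᵥ (G *ᵥ v)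
    have hfb : Cfsg.Geo.IsBilinearForm f :=
      ⟨fun x y v => by simp [f, add_dotProduct], fun c x v => by simp [f, smul_dotProduct],
        fun v x y => by simp [f, mulVec_add, dotProduct_add],
        fun c v x => by simp [f, mulVec_smul, dotProduct_smul]⟩
    have hfix : Cfsg.Geo.FixesForm (Cfsg.Geo.matrixSet N) f := by
      rintro _ ⟨y, hy, rfl⟩ u v
      show (y.val *ᵥ u) ⬝ᵥ (G *ᵥ (y.val *ᵥ v)) = u ⬝ᵥ (G *ᵥ v)
      conv_rhs => rw [← hinvG y hy]
      rw [← mulVec_mulVec, ← mulVec_mulVec, dotProduct_mulVec u, vecMul_transpose]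
    have hradr : ∀ v, (∀ x, f x v = 0) → v = 0 := by
      let W : Submodule F (ι → F) := LinearMap.ker (Matrix.toLin' G)
      have hW : W = ⊥ := by
        refine (hN.absIrred.1 W ?_).resolve_right fun h => hG ?_
        · rintro _ ⟨y, hy, rfl⟩ _ ⟨w, hw, rfl⟩
          have hw' : G *ᵥ w = 0 := by simpa [W] using hw
          have h : y.valᵀ *ᵥ (G *ᵥ (y.val *ᵥ w)) = 0 := by
            rw [mulVec_mulVec, mulVec_mulVec, hinvG y hy, hw']
          have hy' : IsUnit y.valᵀ := (Matrix.isUnit_transpose _).2 y.isUnit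
          simpa [W] using (Matrix.mulVec_injective_iff_isUnit.2 hy') (h.trans (mulVec_zero _).symm)
        · exact Matrix.toLin'.injective (by
            rw [map_zero]; exact LinearMap.ker_eq_top.1 h)
      intro v hv
      have hGv : G *ᵥ v = 0 := dotProduct_eq_zero _ fun x => by rw [dotProduct_comm]; exact hv x
      have : v ∈ W := by simpa [W] using hGv
      rwa [hW, Submodule.mem_bot] at this
    have hGu : IsUnit G := Matrix.mulVec_injective_iff_isUnit.1 fun u v huv => by
      have h0 : G *ᵥ (u - v) = 0 := by rw [mulVec_sub]; exact sub_eq_zero.2 huv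
      exact sub_eq_zero.1 (hradr _ fun x => by simp [f, h0])
    have hnd : Cfsg.Geo.IsNondegenerateForm f := fun v hv =>
      ⟨not_forall.1 fun h => hv (hradr v h), by
        by_contra! h
        refine hv ((Matrix.vecMul_injective_iff_isUnit.2 hGu) ((dotProduct_eq_zero _ fun x => ?_).trans
          (zero_vecMul G).symm))
        rw [← dotProduct_mulVec]; exact h x⟩
    obtain ⟨c, hc⟩ := CfsgLib.Aschbacher.exists_eq_mul_of_fixes hN.absIrred
      (CfsgLib.Aschbacher.IsSesquiForm.of_bilinear hfb)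
      (f' := fun u v => f v u) (CfsgLib.Aschbacher.IsSesquiForm.of_bilinear
        ⟨fun x y v => hfb.add_right v x y, fun c x v => hfb.smul_right c v x,
          fun v x y => hfb.add_left x y v, fun c v x => hfb.smul_left c x v⟩)
      hnd hfix (fun s hs u v => hfix s hs v u)
    obtain ⟨v0, hv0⟩ : ∃ v : ι → F, v ≠ 0 := exists_ne 0
    obtain ⟨⟨x0, hx0⟩, -⟩ := hnd v0 hv0
    have hc2 : c * c = 1 := by
      have h1 := hc x0 v0
      have h2' := hc v0 x0
      rw [h1] at h2'
      refine mul_right_cancel₀ hx0 ?_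
      linear_combination -h2'
    have hnorm : ∀ h ∈ H, ∀ x ∈ N, h * x * h⁻¹ ∈ N := hN.normal
    rcases mul_self_eq_one_iff.1 hc2 with rfl | rfl
    · have hpol : ∀ u v, QuadraticMap.polar (fun w => f w w) u v = 2 * f u v := fun u v => by
        have := hc u v
        simp only [QuadraticMap.polar, hfb.add_left, hfb.add_right]
        linear_combination this
      have hQ : Cfsg.Geo.IsNondegenerateQuadraticForm fun w => f w w :=
        ⟨fun c v => by simp only [hfb.smul_left, hfb.smul_right]; ring,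
          ⟨fun x y v => by simp [hpol, hfb.add_left, mul_add],
            fun c x v => by simp [hpol, hfb.smul_left, mul_left_comm],
            fun v x y => by simp [hpol, hfb.add_right, mul_add],
            fun c v x => by simp [hpol, hfb.smul_right, mul_left_comm]⟩,
          fun v hv => by simpa [hpol, h2] using hnd v hv⟩
      exact Or.inr (Or.inr (Or.inl ⟨CfsgLib.Aschbacher.odd_card_of_two_ne_zero h2, _, hQ,
        CfsgLib.Aschbacher.le_quadSimilarityGroup_of_normalizes h2 hN.absIrred hnorm hQ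
          fun s hs v => hfix s hs v v⟩))
    · refine Or.inr (Or.inr (Or.inr (Or.inl ⟨f, ⟨hfb, fun v w => by simpa using hc w v, fun v => ?_, hnd⟩,
        CfsgLib.Aschbacher.le_similarityGroup_of_normalizes hN.absIrred hnorm
          (CfsgLib.Aschbacher.IsSesquiForm.of_bilinear hfb) hnd hfix⟩)))
      have h := hc v v
      exact (mul_eq_zero.1 (show (2 : F) * f v v = 0 by linear_combination h)).resolve_left h2

end

end CfsgLib.AschLinear
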