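import Mathlib
import Cfsg.Agent.Eq.Def_GeometricClasses
import Cfsg.Agent.AschLinear.Dim4Two

/-!
Over five elements the monomial group of determinant one in dimension four normalises a
symplectic-type two-group.
-/

set_option autoImplicit false
set_option linter.unusedSectionVars false

namespace CfsgLib.AschLinear

open Matrix Module CfsgLib.AschLinear.Pauli

variable {ι : Type} [Fintype ι] [DecidableEq ι] {F : Type*} [Field F]

local notation "GLm" => Matrix.GeneralLinearGroup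

local notation "V4" => Fin 2 × Fin 2

/-- Every permutation of four points normalises the regular four-group. -/
theorem perm_add_const : ∀ (π : Equiv.Perm V4) (t : V4), ∃ t', ∀ k, π (k + t) = π k + t' := by
  decide

/-- Monomial on a frame, shifting the index by a constant, with coefficients forming a character up
to a scalar. -/
def IsShift (b : Basis V4 F (ι → F)) (g : GLm ι F) : Prop :=
  ∃ (t : V4) (ε₁ ε₂ : F) (γ : V4 → F), (ε₁ = 1 ∨ ε₁ = -1) ∧ (ε₂ = 1 ∨ ε₂ = -1) ∧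
    (∀ k, γ (k + (1, 0)) = ε₁ * γ k) ∧ (∀ k, γ (k + (0, 1)) = ε₂ * γ k) ∧
    ∀ k, g.val *ᵥ b k = γ k • b (k + t)

theorem gl_ext_basis (b : Basis V4 F (ι → F)) {g h : GLm ι F}
    (hgh : ∀ k, g.val *ᵥ b k = h.val *ᵥ b k) : g = h :=
  Units.ext (Matrix.toLin'.injective (b.ext fun k => by simpa using hgh k))

theorem exists_shift_involution (b : Basis V4 F (ι → F)) (t : V4) (γ : V4 → F)
    (h : ∀ k, γ k * γ (k + t) = 1) :
    ∃ g : GLm ι F, g * g = 1 ∧ ∀ k, g.val *ᵥ b k = γ k • b (k + t) := by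
  let M : Matrix ι ι F := LinearMap.toMatrix' (b.constr F fun k => γ k • b (k + t))
  have hM : ∀ k, M *ᵥ b k = γ k • b (k + t) := fun k => by
    rw [← Matrix.toLin'_apply, Matrix.toLin'_toMatrix', Basis.constr_basis]
  have htt : ∀ t k : V4, k + t + t = k := by decide
  have hMM : M * M = 1 := Matrix.toLin'.injective (b.ext fun k => by
    rw [Matrix.toLin'_apply, ← mulVec_mulVec, hM, mulVec_smul, hM, smul_smul, h, one_smul, htt,
      Matrix.toLin'_one, LinearMap.id_coe, id_eq])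
  exact ⟨⟨M, M, hMM, hMM⟩, Units.ext hMM, hM⟩

/-- A monomial group of determinant one with coefficients fourth roots of unity normalises a group
generated by four monomial involutions with coefficients `±1` and a square root of minus one. -/
theorem exists_isQuad_of_monomial [Fintype F] {i : Fˣ} (hi : i * i = -1) (h2 : (2 : F) ≠ 0)
    (hn : Fintype.card ι = 4) {b₀ : Basis ι F (ι → F)} {H : Subgroup (GLm ι F)}
    (hmono : CfsgLib.Aschbacher.IsMonomial H b₀) (hSL : H ≤ Cfsg.Geo.specialLinear ι F)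
    (h4 : ∀ h ∈ H, ∀ (π : ι ≃ ι) (c : ι → F), (∀ k, h.val *ᵥ b₀ k = c k • b₀ (π k)) → ∀ k, c k ^ 4 = 1) :
    ∃ x₁ x₂ y₁ y₂ : GLm ι F, IsQuad i x₁ x₂ y₁ y₂ ∧
      (∀ h ∈ H, ∀ g ∈ grp i x₁ x₂ y₁ y₂, h * g * h⁻¹ ∈ grp i x₁ x₂ y₁ y₂) ∧
      ∀ u ∈ ({x₁, x₂, y₁, y₂} : Set (GLm ι F)), ∃ (π : ι ≃ ι) (c : ι → F),
        (∀ k, c k = 1 ∨ c k = -1) ∧ ∀ k, u.val *ᵥ b₀ k = c k • b₀ (π k) := by
  classical
  haveI : Nonempty ι := Fintype.card_pos_iff.1 (by omega)
  let e : V4 ≃ ι := Fintype.equivOfCardEq (by simp [hn])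
  let b : Basis V4 F (ι → F) := b₀.reindex e.symm
  let s₁ : V4 → F := fun k => (-1 : F) ^ (k.1 : ℕ)
  let s₂ : V4 → F := fun k => (-1 : F) ^ (k.2 : ℕ)
  have hs₁add : ∀ k l : V4, s₁ (k + l) = s₁ k * s₁ l := by
    rintro ⟨k₁, k₂⟩ ⟨l₁, l₂⟩; fin_cases k₁ <;> fin_cases l₁ <;> simp [s₁]
  have hs₂add : ∀ k l : V4, s₂ (k + l) = s₂ k * s₂ l := by
    rintro ⟨k₁, k₂⟩ ⟨l₁, l₂⟩; fin_cases k₂ <;> fin_cases l₂ <;> simp [s₂]
  have hs₁pm : ∀ k, s₁ k = 1 ∨ s₁ k = -1 := fun k => neg_one_pow_eq_or F k.1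
  have hs₂pm : ∀ k, s₂ k = 1 ∨ s₂ k = -1 := fun k => neg_one_pow_eq_or F k.2
  obtain ⟨x₁, hx₁, ex₁⟩ := exists_shift_involution b 0 s₁ fun k => by
    rcases hs₁pm k with h | h <;> simp [h]
  obtain ⟨x₂, hx₂, ex₂⟩ := exists_shift_involution b 0 s₂ fun k => by
    rcases hs₂pm k with h | h <;> simp [h]
  obtain ⟨y₁, hy₁, ey₁⟩ := exists_shift_involution b (1, 0) (fun _ => 1) (by simp)
  obtain ⟨y₂, hy₂, ey₂⟩ := exists_shift_involution b (0, 1) (fun _ => 1) (by simp)
  -- signs against the generators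
  have hcomm : ∀ g, IsShift b g → ∀ u ∈ ({x₁, x₂, y₁, y₂} : Set (GLm ι F)),
      CommSign 1 g u ∨ CommSign (-1) g u := by
    rintro g ⟨t, ε₁, ε₂, γ, hε₁, hε₂, hγ₁, hγ₂, hg⟩ u hu
    have key : ∀ (u : GLm ι F) (ε : F), (ε = 1 ∨ ε = -1) →
        (∀ k, g.val *ᵥ (u.val *ᵥ b k) = ε • (u.val *ᵥ (g.val *ᵥ b k))) →
        CommSign 1 g u ∨ CommSign (-1) g u := by
      intro u ε hε hk
      rcases hε with rfl | rfl
      · exact Or.inl (gl_ext_basis b fun k => by simpa [← mulVec_mulVec, sc_one] using hk k)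
      · refine Or.inr (gl_ext_basis b fun k => ?_)
        simp only [Units.val_mul, sc_val, ← mulVec_mulVec, smul_mulVec, one_mulVec]
        simpa using hk k
    rcases hu with rfl | rfl | rfl | rfl
    · refine key _ _ (hs₁pm t) fun k => ?_
      simp only [ex₁, hg, mulVec_smul, add_zero, smul_smul, hs₁add]
      congr 1
      rcases hs₁pm t with h | h <;> simp [h] <;> ring
    · refine key _ _ (hs₂pm t) fun k => ?_
      simp only [ex₂, hg, mulVec_smul, add_zero, smul_smul, hs₂add]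
      congr 1
      rcases hs₂pm t with h | h <;> simp [h] <;> ring
    · refine key _ _ hε₁ fun k => ?_
      simp only [ey₁, hg, mulVec_smul, one_smul, smul_smul, hγ₁, add_right_comm k t]
    · refine key _ _ hε₂ fun k => ?_
      simp only [ey₂, hg, mulVec_smul, one_smul, smul_smul, hγ₂, add_right_comm k t]
  have hsx₁ : IsShift b x₁ := ⟨0, -1, 1, s₁, Or.inr rfl, Or.inl rfl,
    fun k => by rw [hs₁add]; simp [s₁], fun k => by rw [hs₁add]; simp [s₁], ex₁⟩
  have hsx₂ : IsShift b x₂ := ⟨0, 1, -1, s₂, Or.inl rfl, Or.inr rfl,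
    fun k => by rw [hs₂add]; simp [s₂], fun k => by rw [hs₂add]; simp [s₂], ex₂⟩
  have hsign : ∀ (u w : GLm ι F) (ε : F), (ε = 1 ∨ ε = -1) →
      (∀ k, u.val *ᵥ (w.val *ᵥ b k) = ε • (w.val *ᵥ (u.val *ᵥ b k))) →
      (ε = 1 → CommSign 1 u w) ∧ (ε = -1 → CommSign (-1) u w) := by
    intro u w ε _ hk
    refine ⟨fun h => gl_ext_basis b fun k => ?_, fun h => gl_ext_basis b fun k => ?_⟩
    · subst h; simpa [← mulVec_mulVec, sc_one] using hk k
    · subst h
      simp only [Units.val_mul, sc_val, ← mulVec_mulVec, smul_mulVec, one_mulVec]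
      simpa using hk k
  have hq : IsQuad i x₁ x₂ y₁ y₂ :=
    { card := hn
      two := h2
      sq_i := hi
      x₁_sq := hx₁
      x₂_sq := hx₂
      y₁_sq := hy₁
      y₂_sq := hy₂
      xx := (hsign x₁ x₂ 1 (Or.inl rfl) fun k => by
        simp [ex₁, ex₂, mulVec_smul, smul_smul, mul_comm]).1 rfl
      yy := (hsign y₁ y₂ 1 (Or.inl rfl) fun k => by
        simp [ey₁, ey₂, add_right_comm k]).1 rfl
      x₁y₁ := (hsign x₁ y₁ (-1) (Or.inr rfl) fun k => by
        simp [ex₁, ey₁, mulVec_smul, hs₁add, smul_smul]; simp [s₁]).2 rfl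
      x₂y₂ := (hsign x₂ y₂ (-1) (Or.inr rfl) fun k => by
        simp [ex₂, ey₂, mulVec_smul, hs₂add, smul_smul]; simp [s₂]).2 rfl
      x₁y₂ := (hsign x₁ y₂ 1 (Or.inl rfl) fun k => by
        simp [ex₁, ey₂, mulVec_smul, hs₁add, smul_smul]; simp [s₁]).1 rfl
      x₂y₁ := (hsign x₂ y₁ 1 (Or.inl rfl) fun k => by
        simp [ex₂, ey₁, mulVec_smul, hs₂add, smul_smul]; simp [s₂]).1 rfl }
  refine ⟨x₁, x₂, y₁, y₂, hq, fun h hh g hg => hq.conj_mem (fun u hu => hcomm _ ?_) hg, ?_⟩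
  swap
  · have hmon : ∀ (u : GLm ι F) (t : V4) (σ : V4 → F), (∀ k, σ k = 1 ∨ σ k = -1) →
        (∀ k, u.val *ᵥ b k = σ k • b (k + t)) → ∃ (π : ι ≃ ι) (c : ι → F),
        (∀ k, c k = 1 ∨ c k = -1) ∧ ∀ k, u.val *ᵥ b₀ k = c k • b₀ (π k) := fun u t σ hσ hu =>
      ⟨(e.symm.trans (Equiv.addRight t)).trans e, fun k => σ (e.symm k), fun k => hσ _, fun k => by
        simpa [b] using hu (e.symm k)⟩
    rintro u (rfl | rfl | rfl | rfl)
    exacts [hmon _ 0 s₁ hs₁pm ex₁, hmon _ 0 s₂ hs₂pm ex₂, hmon _ _ _ (fun _ => Or.inl rfl) ey₁,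
      hmon _ _ _ (fun _ => Or.inl rfl) ey₂]
  -- conjugates of the generators are shifts
  obtain ⟨π₀, c₀, hc₀⟩ := hmono h hh
  let π : Equiv.Perm V4 := e.trans (π₀.trans e.symm)
  let c : V4 → F := fun k => c₀ (e k)
  have hc : ∀ k, h.val *ᵥ b k = c k • b (π k) := fun k => by simp [b, c, π, hc₀]
  have hcne : ∀ k, c k ≠ 0 := fun k => coeff_ne_zero hc₀ (e k)
  have hprod : (∏ k, c k) ^ 2 = 1 := by
    have hdet : h.val.det = 1 := by
      simpa using congrArg Units.val (MonoidHom.mem_ker.1 (hSL hh))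
    have hmat : LinearMap.toMatrix b b (Matrix.toLin' h.val) =
        (Matrix.diagonal fun r => c (π.symm r)).submatrix id π := by
      ext r k
      rw [LinearMap.toMatrix_apply, Matrix.toLin'_apply, hc]
      by_cases hr : r = π k
      · subst hr; simp
      · simp [hr, Ne.symm hr]
    have hd := LinearMap.det_toMatrix b (Matrix.toLin' h.val)
    rw [hmat, Matrix.det_permute', Matrix.det_diagonal, LinearMap.det_toLin', hdet,
      Equiv.prod_comp π.symm c] at hd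
    rcases Int.units_eq_one_or (Equiv.Perm.sign π) with hs | hs <;> rw [hs] at hd <;>
      simp at hd
    · rw [hd]; ring
    · rw [show (∏ k, c k) = -1 by linear_combination -hd]; ring
  have hA := h4 h hh π₀ c₀ hc₀ (e (0, 0))
  have hB := h4 h hh π₀ c₀ hc₀ (e (1, 0))
  have hC := h4 h hh π₀ c₀ hc₀ (e (0, 1))
  have hD := h4 h hh π₀ c₀ hc₀ (e (1, 1))
  change c (0, 0) ^ 4 = 1 at hA
  change c (1, 0) ^ 4 = 1 at hB
  change c (0, 1) ^ 4 = 1 at hC
  change c (1, 1) ^ 4 = 1 at hD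
  simp only [Fintype.prod_prod_type, Fin.prod_univ_two] at hprod
  have hAB : c (0, 0) ^ 2 * c (1, 0) ^ 2 = c (0, 1) ^ 2 * c (1, 1) ^ 2 := by
    linear_combination c (0, 1) ^ 2 * c (1, 1) ^ 2 * hprod - c (0, 0) ^ 2 * c (1, 0) ^ 2 * c (0, 1) ^ 4 * hD - c (0, 0) ^ 2 * c (1, 0) ^ 2 * hC
  have hAC : c (0, 0) ^ 2 * c (0, 1) ^ 2 = c (1, 0) ^ 2 * c (1, 1) ^ 2 := by
    linear_combination c (1, 0) ^ 2 * c (1, 1) ^ 2 * hprod - c (0, 0) ^ 2 * c (0, 1) ^ 2 * c (1, 0) ^ 4 * hD - c (0, 0) ^ 2 * c (0, 1) ^ 2 * hB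
  have hAD : c (0, 0) ^ 2 * c (1, 1) ^ 2 = c (1, 0) ^ 2 * c (0, 1) ^ 2 := by
    linear_combination c (1, 0) ^ 2 * c (0, 1) ^ 2 * hprod - c (0, 0) ^ 2 * c (1, 1) ^ 2 * c (1, 0) ^ 4 * hC - c (0, 0) ^ 2 * c (1, 1) ^ 2 * hB
  have hrat : ∀ t s k : V4,
      c (k + t + s) * c k * (c s * c t) = c (t + s) * c 0 * (c (k + s) * c (k + t)) := by
    rintro ⟨t₁, t₂⟩ ⟨s₁', s₂'⟩ ⟨k₁, k₂⟩
    fin_cases t₁ <;> fin_cases t₂ <;> fin_cases s₁' <;> fin_cases s₂' <;> fin_cases k₁ <;>
      fin_cases k₂ <;> simp [Prod.zero_eq_mk] <;>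
      first
        | ring1
        | linear_combination hAB
        | linear_combination -hAB
        | linear_combination hAC
        | linear_combination -hAC
        | linear_combination hAD
        | linear_combination -hAD
        | linear_combination hD - hA
        | linear_combination hC - hA
        | linear_combination hB - hA
  have hconst : ∀ t s : V4, ∃ ε : F, (ε = 1 ∨ ε = -1) ∧
      ∀ k, c (k + t + s) * c k = ε * (c (k + s) * c (k + t)) := by
    intro t s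
    have hd : c s * c t ≠ 0 := mul_ne_zero (hcne _) (hcne _)
    refine ⟨c (t + s) * c 0 / (c s * c t), ?_, fun k => ?_⟩
    · have h1 : (c (t + s) * c 0) ^ 2 = (c s * c t) ^ 2 := by
        have htt : ∀ s t : V4, t + t + s = s := by decide
        have hk := hrat t s t
        rw [htt, add_comm t s] at hk
        have htt' : ∀ t : V4, t + t = 0 := by decide
        rw [htt'] at hk
        rw [sq, sq, add_comm t s]
        linear_combination -hk
      rcases sq_eq_sq_iff_eq_or_eq_neg.1 h1 with h' | h'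
      · exact Or.inl (by rw [h', div_self hd])
      · exact Or.inr (by rw [h', neg_div, div_self hd])
    · rw [div_mul_eq_mul_div, eq_div_iff hd]
      linear_combination hrat t s k
  -- a shift conjugated by `h`
  have hconj : ∀ (u : GLm ι F) (t : V4) (σ : V4 → F),
      (∀ k l, σ (k + l) = σ k * σ l) → (∀ k, σ k = 1 ∨ σ k = -1) →
      (∀ k, u.val *ᵥ b k = σ k • b (k + t)) → IsShift b (h * u * h⁻¹) := by
    intro u t σ hσadd hσpm hu
    obtain ⟨t', ht'⟩ := perm_add_const π t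
    let δ : V4 → F := fun k => σ k * c (k + t) / c k
    have hδ : ∀ s, ∃ ε : F, (ε = 1 ∨ ε = -1) ∧ ∀ k, δ (k + s) = ε * δ k := by
      intro s
      obtain ⟨ε, hε, hεk⟩ := hconst t s
      refine ⟨σ s * ε, ?_, fun k => ?_⟩
      · rcases hσpm s with h' | h' <;> rcases hε with h'' | h'' <;> simp [h', h'']
      · have := hεk k
        simp only [δ, hσadd, add_right_comm k s t]
        have h1 := hcne k
        have h2 := hcne (k + s)
        field_simp
        linear_combination σ k * σ s * this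
    obtain ⟨a₁, ha₁⟩ := perm_add_const π.symm (1, 0)
    obtain ⟨a₂, ha₂⟩ := perm_add_const π.symm (0, 1)
    obtain ⟨ε₁, hε₁, hε₁k⟩ := hδ a₁
    obtain ⟨ε₂, hε₂, hε₂k⟩ := hδ a₂
    refine ⟨t', ε₁, ε₂, fun l => δ (π.symm l), hε₁, hε₂, fun l => ?_, fun l => ?_, fun l => ?_⟩
    · simp [ha₁, hε₁k]
    · simp [ha₂, hε₂k]
    · obtain ⟨k, rfl⟩ := π.surjective l
      have hinv : (h⁻¹).val *ᵥ b (π k) = (c k)⁻¹ • b k := by
        have h1 := congrArg (fun v => (h⁻¹).val *ᵥ v) (hc k)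
        simp only [mulVec_mulVec, ← Units.val_mul, inv_mul_cancel, Units.val_one, one_mulVec,
          mulVec_smul] at h1
        conv_rhs => rw [h1, smul_smul, inv_mul_cancel₀ (hcne k), one_smul]
      rw [Units.val_mul, Units.val_mul, ← mulVec_mulVec, ← mulVec_mulVec, hinv, mulVec_smul, hu,
        mulVec_smul, mulVec_smul, hc, ht', smul_smul, smul_smul]
      congr 1
      simp only [δ, π.symm_apply_apply]
      ring
  rcases hu with rfl | rfl | rfl | rfl
  · exact hconj _ 0 s₁ hs₁add hs₁pm ex₁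
  · exact hconj _ 0 s₂ hs₂add hs₂pm ex₂
  · exact hconj _ (1, 0) (fun _ => 1) (by simp) (by simp) ey₁
  · exact hconj _ (0, 1) (fun _ => 1) (by simp) (by simp) ey₂

/-- The monomial group of determinant one over five elements. -/
theorem twoTarget_of_monomial_five [Fintype F] (hF : Fintype.card F = 5) (hn : Fintype.card ι = 4)
    {b₀ : Basis ι F (ι → F)} {H : Subgroup (GLm ι F)} (hmono : CfsgLib.Aschbacher.IsMonomial H b₀)
    (hSL : H ≤ Cfsg.Geo.specialLinear ι F) : TwoTarget H := by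
  haveI : Fact (Nat.Prime 5) := ⟨by norm_num⟩
  haveI : CharP F 5 := charP_of_card_eq_prime hF
  have h5 : (5 : F) = 0 := by exact_mod_cast CharP.cast_eq_zero F 5
  have h2 : (2 : F) ≠ 0 := fun h => one_ne_zero (show (1 : F) = 0 by linear_combination h5 - 2 * h)
  obtain ⟨x₁, x₂, y₁, y₂, hq, hconj, -⟩ := exists_isQuad_of_monomial (i := Units.mk0 (2 : F) h2)
    (Units.ext (by simp; linear_combination h5)) h2 hn hmono hSL fun h hh π c hc k => by
      simpa [hF] using FiniteField.pow_card_sub_one_eq_one (c k) (coeff_ne_zero hc k)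
  exact twoTarget_of_isQuad hq hconj

end CfsgLib.AschLinear
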