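import Mathlib
import Cfsg.Agent.Eq.Def_GeometricClasses
import Cfsg.Agent.Aschbacher.LinearCases
import Cfsg.Agent.AschLinear.Dim4Commute
import Cfsg.Agent.AschLinear.Dim4Monomial

/-!
Helpers for the maximal subgroups of the special linear group in dimension four.
-/

set_option autoImplicit false
set_option linter.unusedSectionVars false

namespace CfsgLib.AschLinear

open Matrix Module CfsgLib.Aschbacher

variable {ι : Type} [Fintype ι] [DecidableEq ι] {F : Type*} [Field F] [Fintype F]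

local notation "GLm" => Matrix.GeneralLinearGroup

/-- A maximal subgroup inside one of the two-group targets. -/
theorem eq_of_twoTarget (hn : 3 ≤ Fintype.card ι) {H : Subgroup (GLm ι F)}
    (hH : Cfsg.Geo.IsMaximalIn (Cfsg.Geo.specialLinear ι F) H) (h : TwoTarget H) :
    (∃ (F₀ : Subfield F) (r : ℕ) (P : GLm ι F), r.Prime ∧ Fintype.card F = Nat.card F₀ ^ r ∧
      H = Cfsg.Geo.subfieldSubgroup F₀ P ⊓ Cfsg.Geo.specialLinear ι F) ∨
    (∃ (p : ℕ) (R : Subgroup (GLm ι F)), p.Prime ∧ Fintype.card F = p ∧ p % 4 = 1 ∧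
      Cfsg.Geo.IsLinearSymplecticTypeData 2 R ∧
      H = Cfsg.Geo.subgroupNormalizer R ⊓ Cfsg.Geo.specialLinear ι F) ∨
    (Odd (Fintype.card F) ∧ ∃ Q : (ι → F) → F, Cfsg.Geo.IsNondegenerateQuadraticForm Q ∧
      H = Cfsg.Geo.quadSimilarityGroup Q ⊓ Cfsg.Geo.specialLinear ι F) ∨
    (∃ f : (ι → F) → (ι → F) → F, Cfsg.Geo.IsSymplecticForm f ∧
      H = Cfsg.Geo.similarityGroup f ⊓ Cfsg.Geo.specialLinear ι F) ∨
    (∃ (σ : F ≃+* F) (f : (ι → F) → (ι → F) → F), Cfsg.Geo.IsUnitaryForm σ f ∧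
      H = Cfsg.Geo.similarityGroup f ⊓ Cfsg.Geo.specialLinear ι F) := by
  rcases h with ⟨F₀, r, P, hr, hc, hne, hle⟩ | ⟨p, R, hp, hc, h4, hR, hne, hle⟩ |
    ⟨ho, Q, hQ, hle⟩ | ⟨f, hf, hle⟩ | ⟨σ, f, hf, hle⟩
  · exact Or.inl ⟨F₀, r, P, hr, hc,
      maximalIn_eq_inf hH hle (not_le_subfieldSubgroup (by omega) hne P)⟩
  · exact Or.inr <| Or.inl ⟨p, R, hp, hc, h4, hR, maximalIn_eq_inf hH hle hne⟩
  · exact Or.inr <| Or.inr <| Or.inl ⟨ho, Q, hQ,
      maximalIn_eq_inf hH hle (not_le_quadSimilarityGroup hn hQ)⟩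
  · exact Or.inr <| Or.inr <| Or.inr <| Or.inl ⟨f, hf, maximalIn_eq_inf hH hle
      (not_specialLinear_le_similarityGroup hn hf.bilinear.add_right
        (IsNondegenerateForm.exists_ne (by omega) hf.nondegenerate))⟩
  · exact Or.inr <| Or.inr <| Or.inr <| Or.inr ⟨σ, f, hf, maximalIn_eq_inf hH hle
      (not_specialLinear_le_similarityGroup hn (IsSesquiForm.of_unitary hf).add_right
        (IsNondegenerateForm.exists_ne (by omega) hf.nondegenerate))⟩

/-- A quadratic similarity group is absorbed by a quadratic or a symplectic target. -/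
theorem twoTarget_of_quad {H : Subgroup (GLm ι F)} {Q : (ι → F) → F}
    (hQ : Cfsg.Geo.IsNondegenerateQuadraticForm Q) (hle : H ≤ Cfsg.Geo.quadSimilarityGroup Q) :
    TwoTarget H := by
  by_cases h2 : (2 : F) = 0
  · exact Or.inr <| Or.inr <| Or.inr <| Or.inl ⟨_, isSymplecticForm_polar h2 hQ,
      hle.trans (quadSimilarityGroup_le_similarityGroup_polar Q)⟩
  · exact Or.inr <| Or.inr <| Or.inl ⟨odd_card_of_two_ne_zero h2, Q, hQ, hle⟩

/-- A frame of four lines is a monomial basis. -/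
theorem exists_monomial_of_decomposition {D : Fin 4 → Submodule F (ι → F)} (hn : Fintype.card ι = 4)
    (hD : Cfsg.Geo.IsMDecomposition 1 D) {H : Subgroup (GLm ι F)}
    (hH : H ≤ Cfsg.Geo.decompositionStabilizer D) :
    ∃ b : Basis ι F (ι → F), CfsgLib.Aschbacher.IsMonomial H b := by
  classical
  have hv : ∀ k, ∃ v : ι → F, v ≠ 0 ∧ D k = Submodule.span F {v} := fun k => by
    obtain ⟨v, hv0, hv⟩ := (finrank_eq_one_iff' (K := F) (V := D k)).1 (hD.finrank_eq k)
    refine ⟨v, fun h => hv0 (Subtype.ext h), le_antisymm (fun w hw => ?_) ?_⟩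
    · obtain ⟨c, hc⟩ := hv ⟨w, hw⟩
      exact Submodule.mem_span_singleton.2 ⟨c, congrArg Subtype.val hc⟩
    · exact (Submodule.span_singleton_le_iff_mem _ _).2 v.2
  choose v hv0 hv using hv
  let e : ι ≃ Fin 4 := Fintype.equivFinOfCardEq hn
  have hli : LinearIndependent F (v ∘ e) :=
    (hD.indep.linearIndependent _ (fun k => by rw [hv k]; exact Submodule.mem_span_singleton_self _)
      hv0).comp e e.injective
  haveI : Nonempty ι := Fintype.card_pos_iff.1 (by omega)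
  refine ⟨basisOfLinearIndependentOfCardEqFinrank hli (Module.finrank_pi F).symm, fun h hh => ?_⟩
  obtain ⟨σ, hσ⟩ := hH hh
  have hex : ∀ i, ∃ c : F, h.val *ᵥ v (e i) = c • v (σ (e i)) := fun i => by
    have hm : h.val *ᵥ v (e i) ∈ D (σ (e i)) := hσ (e i) ▸
      ⟨v (e i), by rw [hv]; exact Submodule.mem_span_singleton_self _, rfl⟩
    rw [hv] at hm
    obtain ⟨c, hc⟩ := Submodule.mem_span_singleton.1 hm
    exact ⟨c, hc.symm⟩
  choose c hc using hex
  exact ⟨(e.trans σ).trans e.symm, c, fun i => by simp [hc]⟩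

end CfsgLib.AschLinear
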