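import Mathlib
import Cfsg.Agent.Eq.Def_GeometricClasses
import Cfsg.Agent.Aschbacher.LinearCases
import Cfsg.Agent.Aschbacher.SymplecticType
import Cfsg.Agent.Aschbacher.NormalizerProper

/-!
The maximal subgroups of the special linear group in odd prime dimension.
-/

set_option autoImplicit false
set_option linter.unusedSectionVars false

namespace CfsgLib.AschLinear

open Matrix Module CfsgLib.Aschbacher

variable {ι : Type} [Fintype ι] [DecidableEq ι] {F : Type*} [Field F] [Fintype F]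

local notation "GLm" => Matrix.GeneralLinearGroup

/-- A maximal subgroup contained in a form or subfield member. -/
theorem eq_of_inFormOrSubfield (hn : 3 ≤ Fintype.card ι) {H : Subgroup (GLm ι F)}
    (hH : Cfsg.Geo.IsMaximalIn (Cfsg.Geo.specialLinear ι F) H) (h : InFormOrSubfield H) :
    (∃ (F₀ : Subfield F) (r : ℕ) (P : GLm ι F), r.Prime ∧ Fintype.card F = Nat.card F₀ ^ r ∧
      H = Cfsg.Geo.subfieldSubgroup F₀ P ⊓ Cfsg.Geo.specialLinear ι F) ∨
    (Odd (Fintype.card F) ∧ ∃ Q : (ι → F) → F, Cfsg.Geo.IsNondegenerateQuadraticForm Q ∧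
      H = Cfsg.Geo.quadSimilarityGroup Q ⊓ Cfsg.Geo.specialLinear ι F) ∨
    (∃ f : (ι → F) → (ι → F) → F, Cfsg.Geo.IsSymplecticForm f ∧
      H = Cfsg.Geo.similarityGroup f ⊓ Cfsg.Geo.specialLinear ι F) ∨
    (∃ (σ : F ≃+* F) (f : (ι → F) → (ι → F) → F), Cfsg.Geo.IsUnitaryForm σ f ∧
      H = Cfsg.Geo.similarityGroup f ⊓ Cfsg.Geo.specialLinear ι F) := by
  rcases h with ⟨F₀, r, P, hr, hc, hne, hle⟩ | ⟨ho, Q, hQ, hle⟩ | ⟨f, hf, hle⟩ | ⟨σ, f, hf, hle⟩
  · exact Or.inl ⟨F₀, r, P, hr, hc,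
      maximalIn_eq_inf hH hle (not_le_subfieldSubgroup (by omega) hne P)⟩
  · exact Or.inr <| Or.inl ⟨ho, Q, hQ,
      maximalIn_eq_inf hH hle (not_le_quadSimilarityGroup hn hQ)⟩
  · exact Or.inr <| Or.inr <| Or.inl ⟨f, hf, maximalIn_eq_inf hH hle
      (not_specialLinear_le_similarityGroup hn hf.bilinear.add_right
        (IsNondegenerateForm.exists_ne (by omega) hf.nondegenerate))⟩
  · exact Or.inr <| Or.inr <| Or.inr ⟨σ, f, hf, maximalIn_eq_inf hH hle
      (not_specialLinear_le_similarityGroup hn (IsSesquiForm.of_unitary hf).add_right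
        (IsNondegenerateForm.exists_ne (by omega) hf.nondegenerate))⟩

/-- The maximal subgroups in odd prime dimension, with the arithmetic of the field kept abstract. -/
theorem prime_cases {n : ℕ} (hp : n.Prime) (hodd : Odd n)
    {H : Subgroup (GLm (Fin n) F)}
    (hH : Cfsg.Geo.IsMaximalIn (Cfsg.Geo.specialLinear (Fin n) F) H) :
    (∃ W : Submodule F (Fin n → F), W ≠ ⊥ ∧ W ≠ ⊤ ∧
      H = Cfsg.Geo.subspaceStabilizer W ⊓ Cfsg.Geo.specialLinear (Fin n) F) ∨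
    (5 ≤ Fintype.card F ∧ ∃ D : Fin n → Submodule F (Fin n → F), Cfsg.Geo.IsMDecomposition 1 D ∧
      H = Cfsg.Geo.decompositionStabilizer D ⊓ Cfsg.Geo.specialLinear (Fin n) F) ∨
    (∃ K : Subalgebra F (Matrix (Fin n) (Fin n) F), Cfsg.Geo.IsFieldSubalgebra n K ∧
      H = Cfsg.Geo.subalgebraNormalizer K ⊓ Cfsg.Geo.specialLinear (Fin n) F) ∨
    (∃ (F₀ : Subfield F) (r : ℕ) (P : GLm (Fin n) F), r.Prime ∧ Fintype.card F = Nat.card F₀ ^ r ∧
      H = Cfsg.Geo.subfieldSubgroup F₀ P ⊓ Cfsg.Geo.specialLinear (Fin n) F) ∨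
    (∃ (p e : ℕ) (R : Subgroup (GLm (Fin n) F)), Odd e ∧ Cfsg.Geo.IsMinimalFieldFor n p e F ∧
      Cfsg.Geo.IsLinearSymplecticTypeData n R ∧
      H = Cfsg.Geo.subgroupNormalizer R ⊓ Cfsg.Geo.specialLinear (Fin n) F) ∨
    (Odd (Fintype.card F) ∧ ∃ Q : (Fin n → F) → F, Cfsg.Geo.IsNondegenerateQuadraticForm Q ∧
      H = Cfsg.Geo.quadSimilarityGroup Q ⊓ Cfsg.Geo.specialLinear (Fin n) F) ∨
    (∃ (σ : F ≃+* F) (f : (Fin n → F) → (Fin n → F) → F), Cfsg.Geo.IsUnitaryForm σ f ∧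
      H = Cfsg.Geo.similarityGroup f ⊓ Cfsg.Geo.specialLinear (Fin n) F) ∨
    Cfsg.Geo.InLinearResidualClass H := by
  have hcardn : Fintype.card (Fin n) = n := Fintype.card_fin n
  have hn : 3 ≤ Fintype.card (Fin n) := by
    rw [hcardn]
    rcases hp.two_le.eq_or_lt with h | h
    · subst h; exact absurd hodd (by decide)
    · exact h
  have hnosymp : ∀ f, ¬ Cfsg.Geo.IsSymplecticForm (ι := Fin n) (F := F) f := fun f =>
    not_isSymplecticForm (by rwa [hcardn]) f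
  rcases linear_maximal_cases hn hH with
      h | ⟨t, m, D, hD, htm, h1, -, h⟩ | ⟨r, K, hr, hrd, hK, h⟩ | ⟨d, k, e, P, hd, hdk, hcard, -⟩ |
      h | h | ⟨f, hf, -⟩ | h | h | ⟨N, r, hN⟩ | ⟨d, S, hS⟩
  · exact Or.inl h
  · rw [hcardn] at htm
    rcases Nat.prime_mul_iff.1 (htm ▸ hp) with ⟨-, rfl⟩ | ⟨-, rfl⟩
    · obtain rfl : t = n := by omega
      exact Or.inr <| Or.inl ⟨h1 rfl, D, hD, h⟩
    · exact absurd hD.two_le (by omega)
  · rw [hcardn] at hrd
    obtain rfl := (Nat.prime_dvd_prime_iff_eq hr hp).1 hrd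
    exact Or.inr <| Or.inr <| Or.inl ⟨K, hK, h⟩
  · rw [hcardn] at hcard
    exact absurd (hcard ▸ hp) (Nat.not_prime_mul (by omega) (by omega))
  · exact Or.inr <| Or.inr <| Or.inr <| Or.inl h
  · exact Or.inr <| Or.inr <| Or.inr <| Or.inr <| Or.inr <| Or.inl h
  · exact absurd hf (hnosymp f)
  · exact Or.inr <| Or.inr <| Or.inr <| Or.inr <| Or.inr <| Or.inr <| Or.inl h
  · exact Or.inr <| Or.inr <| Or.inr <| Or.inr <| Or.inr <| Or.inr <| Or.inr h
  · rcases symplecticType_cases hn hN with ⟨R, hR, hle⟩ | h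
    · haveI : Nonempty (Fin n) := ⟨⟨0, hp.pos⟩⟩
      obtain ⟨j, hj, hnj⟩ := abelianData_isPrimePow (by omega) hN
      rw [hcardn] at hnj
      obtain rfl : j = 1 := Nat.Prime.eq_one_of_pow (hnj ▸ hp : (r ^ j).Prime)
      rw [pow_one] at hnj
      subst hnj
      obtain ⟨p, e, hrp, hmin, hdata⟩ := hR.field
      rcases hdata with ⟨-, he, hz, -⟩ | ⟨h2, -⟩ | ⟨h2, -⟩
      · rw [hz] at hmin
        exact Or.inr <| Or.inr <| Or.inr <| Or.inr <| Or.inl ⟨p, e, R, he, hmin, hR,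
          maximalIn_eq_inf hH hle (not_specialLinear_le_symplecticType hn hR)⟩
      all_goals exact absurd hodd (by rw [h2]; decide)
    · rcases eq_of_inFormOrSubfield hn hH h with h | h | ⟨f, hf, -⟩ | h
      · exact Or.inr <| Or.inr <| Or.inr <| Or.inl h
      · exact Or.inr <| Or.inr <| Or.inr <| Or.inr <| Or.inr <| Or.inl h
      · exact absurd hf (hnosymp f)
      · exact Or.inr <| Or.inr <| Or.inr <| Or.inr <| Or.inr <| Or.inr <| Or.inl h
  · exfalso
    have h := hS.card_eq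
    rw [hcardn] at h
    exact hp.ne_one (by
      have := Nat.Prime.eq_one_of_pow (h ▸ hp : (d ^ S.card).Prime)
      have := hS.two_le_card
      omega)

/-- The residue of `p` and the degree of the smallest field containing the `z`-th roots of unity. -/
theorem residue_of_minimalField {z p e : ℕ} (hz : z.Prime) (hzp : z ≠ p)
    (h : Cfsg.Geo.IsMinimalFieldFor z p e F) :
    0 < e ∧ e < z ∧ (p % z) ^ e % z = 1 ∧ (∀ d, 0 < d → d < e → (p % z) ^ d % z ≠ 1) := by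
  obtain ⟨hp, -, hcard, hdvd, hmin⟩ := h
  have hiff : ∀ d, z ∣ p ^ d - 1 ↔ (p % z) ^ d % z = 1 := fun d => by
    rw [← Nat.pow_mod]
    have h1 : 1 ≤ p ^ d := Nat.one_le_pow _ _ hp.pos
    rw [← Nat.modEq_iff_dvd' h1]
    show 1 % z = p ^ d % z ↔ _
    rw [Nat.one_mod_eq_one.2 hz.ne_one, eq_comm]
  have he : 0 < e := by
    rcases Nat.eq_zero_or_pos e with rfl | he
    · have := Fintype.one_lt_card (α := F)
      rw [hcard, pow_zero] at this
      omega
    · exact he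
  refine ⟨he, ?_, (hiff e).1 hdvd, fun d h1 h2 h3 => hmin d h1 h2 ((hiff d).2 h3)⟩
  by_contra! hze
  haveI := Fact.mk hz
  have hne : (p : ZMod z) ≠ 0 := fun h0 =>
    hzp ((Nat.prime_dvd_prime_iff_eq hz hp).1 ((CharP.cast_eq_zero_iff (ZMod z) z p).1 h0))
  have hfer : p ^ (z - 1) ≡ 1 [MOD z] := by
    rw [← ZMod.natCast_eq_natCast_iff, Nat.cast_pow, Nat.cast_one, ZMod.pow_card_sub_one_eq_one hne]
  exact hmin (z - 1) (by have := hz.two_le; omega) (by omega)
    ((Nat.modEq_iff_dvd' (Nat.one_le_pow _ _ hp.pos)).1 hfer.symm)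

end CfsgLib.AschLinear
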