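import Mathlib
import Cfsg.Agent.Aschbacher.Clifford
import Cfsg.Agent.Aschbacher.Proper

/-!
In dimension three over four elements the normaliser of a cubic extension field meets the special
linear group inside a subfield group.
-/

set_option autoImplicit false

namespace CfsgLib.AschLinear

open Matrix Module
open CfsgLib.Aschbacher

variable {F : Type*} [Field F] [Fintype F]


section Facts

variable {K : Subalgebra F (Matrix (Fin 3) (Fin 3) F)}

theorem pow_card_mem (hK : Cfsg.Geo.IsFieldSubalgebra 3 K) {x : (Matrix (Fin 3) (Fin 3) F)} (hx : x ∈ K) :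
    x ^ (Fintype.card F ^ 3) = x := by
  classical
  letI : CommRing K := { (inferInstance : Ring K) with
    mul_comm := fun a b => Subtype.ext (hK.comm _ a.2 _ b.2) }
  have : IsDomain K := by
    have : NoZeroDivisors K := by
      refine ⟨fun {a b} hab => or_iff_not_imp_left.2 fun ha => ?_⟩
      obtain ⟨y, hy, hxy⟩ := hK.inv a.1 a.2 (fun h => ha (Subtype.ext h))
      have h1 : a.1 * b.1 = 0 := congrArg Subtype.val hab
      apply Subtype.ext
      calc b.1 = (y * a.1) * b.1 := by rw [hK.comm y hy _ a.2, hxy, one_mul]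
        _ = 0 := by rw [mul_assoc, h1, mul_zero]
    have : Nontrivial K := ⟨0, 1, fun h => zero_ne_one (α := (Matrix (Fin 3) (Fin 3) F)) (congrArg Subtype.val h)⟩
    exact NoZeroDivisors.to_isDomain _
  letI : Fintype K := Fintype.ofFinite K
  letI : Field K := Fintype.fieldOfDomain K
  have hc : Fintype.card K = Fintype.card F ^ 3 := by
    rw [Fintype.card_eq_nat_card, Module.natCard_eq_pow_finrank (K := F) (V := K), hK.finrank_eq,
      Nat.card_eq_fintype_card]
  have := congrArg Subtype.val (FiniteField.pow_card (⟨x, hx⟩ : K))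
  rwa [hc, SubmonoidClass.coe_pow] at this

theorem pow_ne_zero_of_mem (hK : Cfsg.Geo.IsFieldSubalgebra 3 K) {x : (Matrix (Fin 3) (Fin 3) F)} (hx : x ∈ K) (h0 : x ≠ 0)
    (n : ℕ) : x ^ n ≠ 0 := by
  obtain ⟨y, hy, hxy⟩ := hK.inv x hx h0
  intro h
  have h1 : x ^ n * y ^ n = 1 := by
    rw [← (show Commute x y from hK.comm x hx y hy).mul_pow, hxy, one_pow]
  rw [h, zero_mul] at h1
  exact zero_ne_one h1

theorem eq_zero_or_eq_one_of_idem (hK : Cfsg.Geo.IsFieldSubalgebra 3 K) {x : (Matrix (Fin 3) (Fin 3) F)} (hx : x ∈ K)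
    (h : x ^ 2 = x) : x = 0 ∨ x = 1 := by
  refine or_iff_not_imp_left.2 fun h0 => ?_
  obtain ⟨y, hy, hxy⟩ := hK.inv x hx h0
  calc x = x * (x * y) := by rw [hxy, mul_one]
    _ = 1 := by rw [← mul_assoc, ← sq, h, hxy]

theorem mul_left_cancel_of_mem (hK : Cfsg.Geo.IsFieldSubalgebra 3 K) {x a b : (Matrix (Fin 3) (Fin 3) F)} (hx : x ∈ K)
    (h0 : x ≠ 0) (h : x * a = x * b) : a = b := by
  obtain ⟨y, hy, hxy⟩ := hK.inv x hx h0
  have hyx : y * x = 1 := hK.comm x hx y hy ▸ hxy
  calc a = y * (x * a) := by rw [← mul_assoc, hyx, one_mul]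
    _ = y * (x * b) := by rw [h]
    _ = b := by rw [← mul_assoc, hyx, one_mul]

end Facts

variable {K : Subalgebra F (Matrix (Fin 3) (Fin 3) F)} (h4 : Fintype.card F = 4)

include h4

theorem charP_two : CharP F 2 := by
  obtain ⟨p, hp⟩ := CharP.exists F
  obtain ⟨n, hpn, hcard⟩ := FiniteField.card F p
  have hdvd : p ∣ 2 ^ 2 := by
    rw [show (2 : ℕ) ^ 2 = 4 from rfl, ← h4, hcard]
    exact dvd_pow_self p n.ne_zero
  rwa [← (Nat.prime_dvd_prime_iff_eq hpn Nat.prime_two).1 (hpn.dvd_of_dvd_pow hdvd)]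

theorem smul_one_pow_four (a : F) : (a • (1 : (Matrix (Fin 3) (Fin 3) F))) ^ 4 = a • (1 : (Matrix (Fin 3) (Fin 3) F)) := by
  rw [smul_pow, one_pow, ← h4, FiniteField.pow_card]

/-- A scalar-free element moved by the sixteenth power has no quadratic relation. -/
theorem linearIndependent_pow (hK : Cfsg.Geo.IsFieldSubalgebra 3 K) {x : (Matrix (Fin 3) (Fin 3) F)} (hx : x ∈ K)
    (h16 : x ^ 16 ≠ x) : LinearIndependent F ![(1 : (Matrix (Fin 3) (Fin 3) F)), x, x ^ 2] := by
  have := charP_two h4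
  have : Fact (Nat.Prime 2) := ⟨Nat.prime_two⟩
  have hp4 : ∀ a : F, a ^ 4 = a := fun a => by rw [← h4]; exact FiniteField.pow_card a
  have hns : ∀ a : F, x ≠ a • (1 : (Matrix (Fin 3) (Fin 3) F)) := by
    intro a ha
    refine h16 ?_
    rw [ha, show (16 : ℕ) = 4 * 4 from rfl, pow_mul, smul_one_pow_four h4, smul_one_pow_four h4]
  rw [Fintype.linearIndependent_iff]
  intro c hc
  have hc' : c 0 • (1 : (Matrix (Fin 3) (Fin 3) F)) + c 1 • x + c 2 • x ^ 2 = 0 := by
    simpa [Fin.sum_univ_three] using hc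
  have hc2 : c 2 = 0 := by
    by_contra hne
    set a := -(c 2)⁻¹ * c 1 with ha
    set b := -(c 2)⁻¹ * c 0 with hb
    have hrel : x ^ 2 = a • x + b • (1 : (Matrix (Fin 3) (Fin 3) F)) := by
      have h1 := congrArg (fun y => (c 2)⁻¹ • y) hc'
      simp only [smul_add, smul_smul, inv_mul_cancel₀ hne, one_smul, smul_zero] at h1
      rw [ha, hb]
      linear_combination (norm := module) h1
    -- the fourth power is another root of the same quadratic
    have hx4 : (x ^ 4) ^ 2 = a • x ^ 4 + b • (1 : (Matrix (Fin 3) (Fin 3) F)) := by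
      rw [← pow_mul, show 4 * 2 = 2 * 4 from rfl, pow_mul, hrel,
        show (4 : ℕ) = 2 ^ 2 from rfl, add_pow_char_pow_of_commute 2 2
          ((Commute.one_right _).smul_right b), smul_pow, smul_pow, one_pow]
      norm_num [hp4]
    have hK4 : x ^ 4 ∈ K := pow_mem hx 4
    have hprod : (x ^ 4 - x) * (x ^ 4 + x - a • (1 : (Matrix (Fin 3) (Fin 3) F))) = 0 := by
      have hcomm : x ^ 4 * x = x * x ^ 4 := (Commute.refl x).pow_left 4
      rw [mul_sub, mul_add, sub_mul, sub_mul, hcomm, ← sq, ← sq, hx4, hrel, mul_smul_comm, mul_one,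
        smul_sub]
      abel
    have hor : x ^ 4 = x ∨ x ^ 4 = a • (1 : (Matrix (Fin 3) (Fin 3) F)) - x := by
      by_cases h0 : x ^ 4 - x = 0
      · exact Or.inl (sub_eq_zero.1 h0)
      · right
        have h1 := mul_left_cancel_of_mem hK (sub_mem hK4 hx) h0 (hprod.trans (mul_zero _).symm)
        rw [add_sub_assoc] at h1
        rw [eq_neg_of_add_eq_zero_left h1, neg_sub]
    refine h16 ?_
    rw [show (16 : ℕ) = 4 * 4 from rfl, pow_mul]
    rcases hor with h | h
    · rw [h, h]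
    · rw [h, show (4 : ℕ) = 2 ^ 2 from rfl,
        sub_pow_char_pow_of_commute 2 2 ((Commute.one_left x).smul_left a), show 2 ^ 2 = 4 from rfl,
        smul_one_pow_four h4, h, sub_sub_cancel]
  have hc1 : c 1 = 0 := by
    by_contra hne
    refine hns (-(c 1)⁻¹ * c 0) ?_
    rw [hc2, zero_smul, add_zero] at hc'
    have h1 := congrArg (fun y => (c 1)⁻¹ • y) hc'
    simp only [smul_add, smul_smul, inv_mul_cancel₀ hne, one_smul, smul_zero] at h1
    linear_combination (norm := module) h1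
  have hc0 : c 0 = 0 := by
    rw [hc1, hc2, zero_smul, zero_smul, add_zero, add_zero] at hc'
    exact (smul_eq_zero.1 hc').resolve_right one_ne_zero
  intro i
  fin_cases i <;> assumption

theorem exists_scalar_of_pow_four (hK : Cfsg.Geo.IsFieldSubalgebra 3 K) {x : (Matrix (Fin 3) (Fin 3) F)} (hx : x ∈ K)
    (h : x ^ 4 = x) : ∃ a : F, x = a • (1 : (Matrix (Fin 3) (Fin 3) F)) := by
  have := charP_two h4
  have : Fact (Nat.Prime 2) := ⟨Nat.prime_two⟩
  classical
  -- x is a root of the product of all (X - a)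
  by_contra hcon
  push Not at hcon
  have key : ∀ a : F, x - a • (1 : (Matrix (Fin 3) (Fin 3) F)) ∈ K ∧ x - a • (1 : (Matrix (Fin 3) (Fin 3) F)) ≠ 0 := fun a =>
    ⟨sub_mem hx (K.smul_mem K.one_mem a), sub_ne_zero.2 (hcon a)⟩
  let p : Polynomial F := ∏ a : F, (Polynomial.X - Polynomial.C a)
  have hp : p = Polynomial.X ^ 4 - Polynomial.X := by
    rw [← h4]
    have hdeg : (Polynomial.X ^ Fintype.card F - Polynomial.X : Polynomial F).natDegree = Fintype.card F :=
      FiniteField.X_pow_card_sub_X_natDegree_eq F Fintype.one_lt_card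
    have hroots := FiniteField.roots_X_pow_card_sub_X F
    have hmon : (Polynomial.X ^ Fintype.card F - Polynomial.X : Polynomial F).Monic :=
      Polynomial.monic_X_pow_sub (by rw [Polynomial.degree_X]; exact_mod_cast Fintype.one_lt_card)
    rw [← Polynomial.prod_multiset_X_sub_C_of_monic_of_roots_card_eq hmon
      (by rw [hroots, hdeg]; rfl), hroots]
    rfl
  have hp0 : Polynomial.aeval x p = 0 := by rw [hp]; simp [h]
  have hne : ∀ s : Finset F, Polynomial.aeval x (∏ a ∈ s, (Polynomial.X - Polynomial.C a)) ≠ 0 ∧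
      Polynomial.aeval x (∏ a ∈ s, (Polynomial.X - Polynomial.C a)) ∈ K := by
    intro s
    induction s using Finset.induction with
    | empty => simp
    | insert a s has ih =>
      rw [Finset.prod_insert has, map_mul]
      have hfac : Polynomial.aeval x (Polynomial.X - Polynomial.C a) = x - a • (1 : (Matrix (Fin 3) (Fin 3) F)) := by
        simp [Algebra.algebraMap_eq_smul_one]
      rw [hfac]
      exact ⟨fun h0 => ih.1 (mul_left_cancel_of_mem hK (key a).1 (key a).2
        (h0.trans (mul_zero _).symm)), mul_mem (key a).1 ih.2⟩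
  exact (hne Finset.univ).1 hp0

theorem exists_mem_order_seven (hK : Cfsg.Geo.IsFieldSubalgebra 3 K) :
    ∃ g ∈ K, g ^ 8 = g ∧ g ^ 16 ≠ g := by
  classical
  have hcard : Nat.card K = 64 := by
    rw [Module.natCard_eq_pow_finrank (K := F) (V := K), hK.finrank_eq, Nat.card_eq_fintype_card, h4]
    norm_num
  have hu : Nat.card Kˣ = 63 := by
    have hnd : ∀ a : K, a ≠ 0 → IsUnit a := fun a ha => by
      obtain ⟨y, hy, hxy⟩ := hK.inv a.1 a.2 (fun h => ha (Subtype.ext h))
      exact IsUnit.of_mul_eq_one ⟨y, hy⟩ (Subtype.ext hxy)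
    have : Nontrivial K := ⟨0, 1, fun h => zero_ne_one (α := Matrix (Fin 3) (Fin 3) F) (congrArg Subtype.val h)⟩
    letI : Fintype K := Fintype.ofFinite K
    have e : Kˣ ≃ {a : K // a ≠ 0} :=
      { toFun := fun u => ⟨u.1, u.ne_zero⟩
        invFun := fun a => (hnd a.1 a.2).unit
        left_inv := fun u => Units.ext rfl
        right_inv := fun a => Subtype.ext rfl }
    rw [Nat.card_congr e, Nat.card_eq_fintype_card, Fintype.card_subtype_compl,
      Fintype.card_subtype_eq, ← Nat.card_eq_fintype_card, hcard]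
  have : Fact (Nat.Prime 7) := ⟨by norm_num⟩
  have : Finite Kˣ := Nat.finite_of_card_ne_zero (by omega)
  obtain ⟨u, hu7⟩ := exists_prime_orderOf_dvd_card' (G := Kˣ) 7 (by rw [hu]; norm_num)
  have hne : ∀ n : ℕ, n % 7 ≠ 1 → ((u : K) : Matrix (Fin 3) (Fin 3) F) ^ n ≠ (u : K).1 := by
    intro n hn h
    have h1 : u ^ n = u ^ 1 := by
      rw [pow_one]; exact Units.ext (Subtype.ext (by push_cast; exact h))
    rw [pow_eq_pow_iff_modEq, hu7] at h1
    exact hn h1
  refine ⟨(u : K).1, (u : K).2, ?_, hne 16 (by norm_num)⟩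
  have h1 : u ^ 8 = u := by
    rw [pow_succ, ← hu7, pow_orderOf_eq_one, one_mul]
  calc (u : K).1 ^ 8 = ((u ^ 8 : Kˣ) : K).1 := by push_cast; rfl
    _ = (u : K).1 := by rw [h1]

/-- The prime subfield, as the fixed points of squaring. -/
theorem exists_subfield_two : ∃ F₀ : Subfield F, F₀ ≠ ⊤ ∧ Fintype.card F = Nat.card F₀ ^ 2 ∧
    ∀ a : F, a ∈ F₀ ↔ a ^ 2 = a := by
  classical
  have := charP_two h4
  have : Fact (Nat.Prime 2) := ⟨Nat.prime_two⟩
  let F₀ : Subfield F := (frobenius F 2).eqLocusField (RingHom.id F)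
  have hmem : ∀ a : F, a ∈ F₀ ↔ a ^ 2 = a := fun a => by
    show frobenius F 2 a = RingHom.id F a ↔ _
    simp [frobenius_def]
  have hcard : Nat.card F₀ = 2 := by
    rw [← SetLike.coe_sort_coe, Nat.card_coe_set_eq]
    have : (F₀ : Set F) = {0, 1} := by
      ext a
      rw [SetLike.mem_coe, hmem, Set.mem_insert_iff, Set.mem_singleton_iff]
      constructor
      · intro h
        rcases eq_or_ne a 0 with rfl | ha
        · simp
        · exact Or.inr ((mul_left_eq_self₀.1 (by rw [← sq]; exact h)).resolve_right ha)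
      · rintro (rfl | rfl) <;> simp
    rw [this, Set.ncard_pair zero_ne_one]
  refine ⟨F₀, fun htop => ?_, by rw [hcard, h4]; norm_num, hmem⟩
  rw [htop] at hcard
  have : Nat.card (⊤ : Subfield F) = Nat.card F := Nat.card_congr (Equiv.subtypeUnivEquiv fun x => trivial)
  rw [this, Nat.card_eq_fintype_card, h4] at hcard
  norm_num at hcard

/-- The determinant of a cube root of a scalar in the cubic field. -/
theorem det_eq_of_cube (hK : Cfsg.Geo.IsFieldSubalgebra 3 K) {x : Matrix (Fin 3) (Fin 3) F}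
    (hx : x ∈ K) {a : F} (h3 : x ^ 3 = a • (1 : Matrix (Fin 3) (Fin 3) F)) (ha : a ^ 3 = 1)
    (ha1 : a ≠ 1) : x.det = a := by
  have h9 : x ^ 9 = 1 := by
    rw [show (9 : ℕ) = 3 * 3 from rfl, pow_mul, h3, smul_pow, ha, one_pow, one_smul]
  have hx0 : x ≠ 0 := by
    rintro rfl
    rw [zero_pow (by norm_num)] at h9
    exact zero_ne_one h9
  have h16 : x ^ 16 ≠ x := by
    intro h
    have h15 : x ^ 15 = 1 := by
      refine mul_left_cancel_of_mem hK hx hx0 ?_
      rw [mul_one, ← pow_succ', h]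
    have h6 : x ^ 6 = 1 := by
      have := h15
      rwa [show (15 : ℕ) = 9 + 6 from rfl, pow_add, h9, one_mul] at this
    have h3' : x ^ 3 = 1 := by
      have := h9
      rwa [show (9 : ℕ) = 6 + 3 from rfl, pow_add, h6, one_mul] at this
    rw [h3] at h3'
    refine ha1 ?_
    have := congrFun (congrFun h3' 0) 0
    simpa using this
  obtain ⟨v, hv⟩ := exists_ne (0 : Fin 3 → F)
  have hcomb : ∀ c : Fin 3 → F,
      (∑ i : Fin 3, c i • x ^ (i : ℕ)) *ᵥ v = ∑ i : Fin 3, c i • (x ^ (i : ℕ) *ᵥ v) := fun c => by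
    rw [Matrix.sum_mulVec]; exact Finset.sum_congr rfl fun i _ => smul_mulVec _ _ _
  have hpow : ∀ i : Fin 3, x ^ (i : ℕ) = ![(1 : Matrix (Fin 3) (Fin 3) F), x, x ^ 2] i := by
    intro i; fin_cases i <;> simp
  have hli : LinearIndependent F (fun i : Fin 3 => x ^ (i : ℕ) *ᵥ v) := by
    rw [Fintype.linearIndependent_iff]
    intro c hc
    rw [← hcomb] at hc
    have h0 : ∑ i : Fin 3, c i • x ^ (i : ℕ) = 0 := by
      by_contra hne
      obtain ⟨y, hy, hxy⟩ := hK.inv _ (sum_mem fun i _ => K.smul_mem (pow_mem hx _) _) hne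
      have hyx : y * (∑ i : Fin 3, c i • x ^ (i : ℕ)) = 1 :=
        (hK.comm _ (sum_mem fun i _ => K.smul_mem (pow_mem hx _) _) y hy) ▸ hxy
      have := congrArg (y *ᵥ ·) hc
      simp only [mulVec_mulVec, hyx, one_mulVec, mulVec_zero] at this
      exact hv this
    simp only [hpow] at h0
    exact Fintype.linearIndependent_iff.1 (linearIndependent_pow h4 hK hx h16) c h0
  let b : Basis (Fin 3) F (Fin 3 → F) :=
    basisOfLinearIndependentOfCardEqFinrank hli (by simp)
  have hb : ∀ i, b i = x ^ (i : ℕ) *ᵥ v := fun i => by simp [b]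
  rw [← LinearMap.det_toLin', ← LinearMap.det_toMatrix b]
  have hm : LinearMap.toMatrix b b (Matrix.toLin' x) = !![0, 0, a; 1, 0, 0; 0, 1, 0] := by
    ext i j
    rw [LinearMap.toMatrix_apply, Matrix.toLin'_apply, hb, mulVec_mulVec, ← pow_succ']
    fin_cases j
    · have h1 : x ^ 1 *ᵥ v = b 1 := by rw [hb]; rfl
      simp only [Fin.zero_eta, Fin.val_zero, zero_add]
      rw [h1, b.repr_self]
      fin_cases i <;> simp
    · have h1 : x ^ 2 *ᵥ v = b 2 := by rw [hb]; rfl
      simp only [Fin.mk_one, Fin.val_one, Nat.reduceAdd]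
      rw [h1, b.repr_self]
      fin_cases i <;> simp
    · have h1 : x ^ 3 *ᵥ v = a • b 0 := by
        rw [hb, h3, smul_mulVec, Fin.val_zero, pow_zero]
      simp only [Fin.reduceFinMk, Fin.val_two, Nat.reduceAdd]
      rw [h1, map_smul, b.repr_self]
      fin_cases i <;> simp
  rw [hm, Matrix.det_fin_three]
  simp

/-- Over four elements the cubic extension case lies in a subfield group. -/
theorem exists_subfieldSubgroup_of_normalizes (hK : Cfsg.Geo.IsFieldSubalgebra 3 K)
    {H : Subgroup (Matrix.GeneralLinearGroup (Fin 3) F)}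
    (hH : H ≤ Cfsg.Geo.subalgebraNormalizer K) (hSL : H ≤ Cfsg.Geo.specialLinear (Fin 3) F) :
    ∃ (F₀ : Subfield F) (r : ℕ) (P : Matrix.GeneralLinearGroup (Fin 3) F), r.Prime ∧
      Fintype.card F = Nat.card F₀ ^ r ∧ F₀ ≠ ⊤ ∧ H ≤ Cfsg.Geo.subfieldSubgroup F₀ P := by
  have := charP_two h4
  have : Fact (Nat.Prime 2) := ⟨Nat.prime_two⟩
  have hp4 : ∀ a : F, a ^ 4 = a := fun a => by rw [← h4]; exact FiniteField.pow_card a
  obtain ⟨g, hg, hg8, hg16⟩ := exists_mem_order_seven h4 hK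
  obtain ⟨F₀, hF₀, hcard, hmem⟩ := exists_subfield_two h4
  obtain ⟨v, hv⟩ := exists_ne (0 : Fin 3 → F)
  have hinj : Function.Injective (evalAt K v) := mulVec_injective_of_inv hK.inv hv
  have hsurj : Function.Surjective (evalAt K v) :=
    (LinearMap.injective_iff_surjective_of_finrank_eq_finrank
      (by rw [hK.finrank_eq, finrank_pi]; rfl)).mp hinj
  let gK : K := ⟨g, hg⟩
  have hliK : LinearIndependent F (fun i : Fin 3 => gK ^ (i : ℕ)) := by
    rw [Fintype.linearIndependent_iff]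
    intro c hc
    have h1 := congrArg Subtype.val hc
    simp only [AddSubmonoidClass.coe_finsetSum, SetLike.val_smul, SubmonoidClass.coe_pow,
      ZeroMemClass.coe_zero, gK] at h1
    refine Fintype.linearIndependent_iff.1 (linearIndependent_pow h4 hK hg hg16) c ?_
    rw [← h1]
    exact Finset.sum_congr rfl fun i _ => by fin_cases i <;> simp
  let bK : Basis (Fin 3) F K :=
    basisOfLinearIndependentOfCardEqFinrank hliK (by rw [Fintype.card_fin, hK.finrank_eq])
  -- elements fixed by the eighth power have coordinates in the prime field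
  have hL : ∀ x : K, (x : Matrix (Fin 3) (Fin 3) F) ^ 8 = x → ∀ i, bK.repr x i ∈ F₀ := by
    intro x hx i
    have hgi : ∀ j : Fin 3, (gK ^ (j : ℕ)) ^ 8 = gK ^ (j : ℕ) := fun j => by
      rw [← pow_mul, mul_comm, pow_mul]
      congr 1
      exact Subtype.ext (by simpa [gK] using hg8)
    have h8 : (x : Matrix (Fin 3) (Fin 3) F) ^ 8 =
        ∑ j : Fin 3, (bK.repr x j) ^ 2 • ((gK ^ (j : ℕ) : K) : Matrix (Fin 3) (Fin 3) F) := by
      have hsum : (x : Matrix (Fin 3) (Fin 3) F) =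
          ∑ j : Fin 3, bK.repr x j • ((gK ^ (j : ℕ) : K) : Matrix (Fin 3) (Fin 3) F) := by
        conv_lhs => rw [← bK.sum_repr x]
        simp [bK]
      conv_lhs => rw [hsum]
      simp only [Fin.sum_univ_three, show (8 : ℕ) = 2 ^ 3 from rfl]
      rw [add_pow_char_pow_of_commute 2 3 (hK.comm _ (K.add_mem (K.smul_mem (gK ^ _).2 _)
          (K.smul_mem (gK ^ _).2 _)) _ (K.smul_mem (gK ^ _).2 _)),
        add_pow_char_pow_of_commute 2 3 (hK.comm _ (K.smul_mem (gK ^ _).2 _) _
          (K.smul_mem (gK ^ _).2 _))]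
      have hc8 : ∀ c : F, c ^ (2 ^ 3) = c ^ 2 := fun c => by
        rw [show (2 : ℕ) ^ 3 = 4 + 4 from rfl, pow_add, hp4, sq]
      simp only [smul_pow, ← SubmonoidClass.coe_pow, show (2 : ℕ) ^ 3 = 8 from rfl, hgi]
      simp only [show (8 : ℕ) = 2 ^ 3 from rfl, hc8]
    have hx2 : x = ∑ j : Fin 3, (bK.repr x j) ^ 2 • bK j := by
      apply Subtype.ext
      rw [← hx, h8]
      simp [bK]
    rw [hmem]
    conv_rhs => rw [hx2, bK.repr_sum_self]
  -- the basis
  have hliv : LinearIndependent F (fun i : Fin 3 => evalAt K v (gK ^ (i : ℕ))) :=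
    hliK.map' _ (LinearMap.ker_eq_bot.2 hinj)
  let M : Matrix (Fin 3) (Fin 3) F := Matrix.of fun i j => evalAt K v (gK ^ (j : ℕ)) i
  have hM : IsUnit M := by
    rw [← Matrix.linearIndependent_cols_iff_isUnit]
    exact hliv
  refine ⟨F₀, 2, hM.unit, Nat.prime_two, hcard, hF₀, fun h hh => ?_⟩
  -- image of the generator
  set g' := (h : Matrix (Fin 3) (Fin 3) F) * g *
    ((h⁻¹ : Matrix.GeneralLinearGroup (Fin 3) F) : Matrix (Fin 3) (Fin 3) F) with hg'
  have hg'K : g' ∈ K := ((hH hh) g).1 hg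
  have hg'pow : ∀ n : ℕ, g' ^ n = (h : Matrix (Fin 3) (Fin 3) F) * g ^ n *
      ((h⁻¹ : Matrix.GeneralLinearGroup (Fin 3) F) : Matrix (Fin 3) (Fin 3) F) :=
    fun n => Units.conj_pow h g n
  have hg'8 : g' ^ 8 = g' := by rw [hg'pow, hg8]
  obtain ⟨k, hk⟩ := hsurj ((h : Matrix (Fin 3) (Fin 3) F) *ᵥ v)
  have hk' : (k : Matrix (Fin 3) (Fin 3) F) *ᵥ v = (h : Matrix (Fin 3) (Fin 3) F) *ᵥ v := hk
  have hpowmem : ∀ j : ℕ, (g' ^ j) ^ 8 = g' ^ j := fun j => by
    rw [← pow_mul, mul_comm, pow_mul, hg'8]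
  let C : Matrix (Fin 3) (Fin 3) F :=
    Matrix.of fun i j => bK.repr ⟨g' ^ (j : ℕ), pow_mem hg'K _⟩ i
  have hC : ∀ i j, C i j ∈ F₀ := fun i j =>
    hL ⟨g' ^ (j : ℕ), pow_mem hg'K _⟩ (hpowmem _) i
  have hexp : ∀ x : K, (M *ᵥ fun i => bK.repr x i) = (x : Matrix (Fin 3) (Fin 3) F) *ᵥ v := by
    intro x
    conv_rhs => rw [← bK.sum_repr x]
    ext l
    simp only [Matrix.mulVec, dotProduct, M, Matrix.of_apply]
    show _ = ((∑ i, bK.repr x i • bK i : K) : Matrix (Fin 3) (Fin 3) F) l ⬝ᵥ v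
    have : evalAt K v (∑ i, bK.repr x i • bK i) l =
        ∑ i, bK.repr x i * evalAt K v (gK ^ (i : ℕ)) l := by
      simp [bK, map_sum, map_smul, Finset.sum_apply]
    exact (Finset.sum_congr rfl fun i _ => mul_comm _ _).trans this.symm
  have hkey : (h : Matrix (Fin 3) (Fin 3) F) * M = (k : Matrix (Fin 3) (Fin 3) F) * M * C := by
    apply Matrix.ext_of_mulVec_single
    intro j
    rw [← mulVec_mulVec, ← mulVec_mulVec, ← mulVec_mulVec]
    have e1 : M *ᵥ Pi.single j 1 = g ^ (j : ℕ) *ᵥ v := by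
      rw [Matrix.mulVec_single_one]
      ext i
      simp [M, evalAt, gK]
    have e2 : M *ᵥ (C *ᵥ Pi.single j 1) = g' ^ (j : ℕ) *ᵥ v := by
      rw [Matrix.mulVec_single_one]
      exact hexp ⟨g' ^ (j : ℕ), pow_mem hg'K _⟩
    rw [e1, e2, mulVec_mulVec, mulVec_mulVec, hK.comm _ k.2 _ (pow_mem hg'K _), ← mulVec_mulVec,
      ← mulVec_mulVec, hk', hg'pow]
    simp only [mulVec_mulVec]
    rw [mul_assoc _ _ (h : Matrix (Fin 3) (Fin 3) F), Units.inv_mul, mul_one]
  have hdetM : M.det ≠ 0 := ((Matrix.isUnit_iff_isUnit_det _).1 hM).ne_zero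
  have hdh : (h : Matrix (Fin 3) (Fin 3) F).det = 1 := by
    have := MonoidHom.mem_ker.1 (hSL hh)
    exact congrArg Units.val this
  have hdk : (k : Matrix (Fin 3) (Fin 3) F).det * C.det = 1 := by
    have := congrArg Matrix.det hkey
    rw [det_mul, det_mul, det_mul, hdh, one_mul] at this
    refine mul_left_cancel₀ hdetM ?_
    rw [mul_one]
    linear_combination -this
  have hdk1 : (k : Matrix (Fin 3) (Fin 3) F).det = 1 := by
    have hCd : C.det ∈ F₀ := by
      rw [Matrix.det_fin_three]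
      repeat' first
        | apply add_mem
        | apply sub_mem
        | apply mul_mem
        | exact hC _ _
    rcases eq_or_ne C.det 1 with h1 | h1
    · rwa [h1, mul_one] at hdk
    · exfalso
      have h2 := (hmem _).1 hCd
      have h3 : C.det ≠ 0 := fun h0 => by rw [h0, mul_zero] at hdk; exact zero_ne_one hdk
      exact h1 ((mul_left_eq_self₀.1 (by rw [← sq]; exact h2)).resolve_right h3)
  have hk0 : (k : Matrix (Fin 3) (Fin 3) F) ≠ 0 := fun h0 => by
    rw [h0, det_zero] at hdk1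
    exact zero_ne_one hdk1
  have h64 : (k : Matrix (Fin 3) (Fin 3) F) ^ 64 = k := by
    simpa [h4] using pow_card_mem hK k.2
  have h63 : (k : Matrix (Fin 3) (Fin 3) F) ^ 63 = 1 := by
    refine mul_left_cancel_of_mem hK k.2 hk0 ?_
    rw [mul_one, ← pow_succ']
    exact h64
  obtain ⟨a, ha⟩ := exists_scalar_of_pow_four h4 hK (pow_mem k.2 21)
    (by rw [← pow_mul, show 21 * 4 = 63 + 21 from rfl, pow_add, h63, one_mul])
  have ha3 : a ^ 3 = 1 := by
    have h1 := congrArg (· ^ 3) ha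
    rw [← pow_mul, show 21 * 3 = 63 from rfl, h63, smul_pow, one_pow] at h1
    have h2 := congrFun (congrFun h1 0) 0
    simpa using h2.symm
  have ha1 : a = 1 := by
    by_contra hne
    have h1 := det_eq_of_cube h4 hK (pow_mem k.2 7) (a := a) (by rw [← pow_mul, ha]) ha3 hne
    rw [det_pow, hdk1, one_pow] at h1
    exact hne h1.symm
  have h21 : (k : Matrix (Fin 3) (Fin 3) F) ^ 21 = 1 := by rw [ha, ha1, one_smul]
  obtain ⟨b, hb⟩ := exists_scalar_of_pow_four h4 hK (pow_mem k.2 7)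
    (by rw [← pow_mul, show 7 * 4 = 21 + 7 from rfl, pow_add, h21, one_mul])
  have hk15 : ((k : Matrix (Fin 3) (Fin 3) F) ^ 15) ^ 8 = (k : Matrix (Fin 3) (Fin 3) F) ^ 15 := by
    rw [← pow_mul, show 15 * 8 = 21 * 5 + 15 from rfl, pow_add, pow_mul, h21, one_pow, one_mul]
  have hb0 : b ≠ 0 := fun h0 => by
    rw [h0, zero_smul] at hb
    exact pow_ne_zero_of_mem hK k.2 hk0 7 hb
  -- the rational matrix
  let C' : Matrix (Fin 3) (Fin 3) F := Matrix.of fun i j =>
    bK.repr ⟨(k : Matrix (Fin 3) (Fin 3) F) ^ 15 * g' ^ (j : ℕ), mul_mem (pow_mem k.2 15) (pow_mem hg'K _)⟩ i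
  have hC' : ∀ i j, C' i j ∈ F₀ := fun i j => by
    refine hL ⟨_, _⟩ ?_ i
    rw [(show Commute ((k : Matrix (Fin 3) (Fin 3) F) ^ 15) (g' ^ (j : ℕ)) from
      hK.comm _ (pow_mem k.2 15) _ (pow_mem hg'K _)).mul_pow, hk15, hpowmem]
  have hkey' : (h : Matrix (Fin 3) (Fin 3) F) * M = b • (M * C') := by
    rw [hkey]
    apply Matrix.ext_of_mulVec_single
    intro j
    have e2 : M *ᵥ (C *ᵥ Pi.single j 1) = g' ^ (j : ℕ) *ᵥ v := by
      rw [Matrix.mulVec_single_one]
      exact hexp ⟨g' ^ (j : ℕ), pow_mem hg'K _⟩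
    have e3 : M *ᵥ (C' *ᵥ Pi.single j 1) =
        ((k : Matrix (Fin 3) (Fin 3) F) ^ 15 * g' ^ (j : ℕ)) *ᵥ v := by
      rw [Matrix.mulVec_single_one]
      exact hexp ⟨_, mul_mem (pow_mem k.2 15) (pow_mem hg'K _)⟩
    rw [← mulVec_mulVec, ← mulVec_mulVec, e2, smul_mulVec, ← mulVec_mulVec, e3, ← smul_mulVec,
      ← smul_mul_assoc, mulVec_mulVec]
    congr 1
    congr 1
    calc (k : Matrix (Fin 3) (Fin 3) F)
        = (k : Matrix (Fin 3) (Fin 3) F) ^ 7 * (k : Matrix (Fin 3) (Fin 3) F) ^ 15 := by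
          rw [← pow_add, show 7 + 15 = 21 + 1 from rfl, pow_add, h21, one_mul, pow_one]
      _ = b • (k : Matrix (Fin 3) (Fin 3) F) ^ 15 := by rw [hb, smul_mul_assoc, one_mul]
  let S₀ : Matrix (Fin 3) (Fin 3) F₀ := fun i j => ⟨C' i j, hC' i j⟩
  have hS₀ : S₀.det ≠ 0 := by
    intro h0
    have hmap : (F₀.subtype : F₀ →+* F) S₀.det = C'.det := by rw [RingHom.map_det]; rfl
    rw [h0, map_zero] at hmap
    have := congrArg Matrix.det hkey'
    rw [det_mul, det_smul, det_mul, hdh, one_mul, ← hmap, mul_zero, mul_zero] at this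
    exact hdetM this
  refine (mem_subfieldSubgroup_iff).2 ⟨Matrix.GeneralLinearGroup.mkOfDetNeZero S₀ hS₀,
    Units.mk0 b hb0, Units.ext ?_⟩
  have hPM : (hM.unit : Matrix (Fin 3) (Fin 3) F) = M := hM.unit_spec
  have hinv : ((hM.unit⁻¹ : Matrix.GeneralLinearGroup (Fin 3) F) : Matrix (Fin 3) (Fin 3) F) * M = 1 :=
    hM.val_inv_mul
  simp only [Units.val_mul, hPM]
  rw [mul_assoc, hkey', mul_smul_comm, ← mul_assoc, hinv, one_mul]
  show b • C' = C' * Matrix.scalar (Fin 3) b
  rw [Matrix.scalar_apply, ← Matrix.smul_one_eq_diagonal, mul_smul_comm, mul_one]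

end CfsgLib.AschLinear
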